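import Mathlib
import Cfsg.Agent.GeoLib.SUGL
import Cfsg.Agent.GeoLib.Subfield
import Cfsg.Agent.SubMaxSp.Quad

/-!
Eichler elements of a subgroup of `SU` and rational unitary maps.
-/

set_option autoImplicit false

namespace CfsgLib.SubMaxSU

open Matrix CfsgLib.UGeom

variable {F : Type*} [Field F] [Fintype F] {n q : ℕ}

/-- `GU ⊓ SL`. -/
abbrev S (n : ℕ) (F : Type*) [Field F] (q : ℕ) : Subgroup (GL (Fin n) F) :=
  Cfsg.GU n F q ⊓ Cfsg.Geo.specialLinear (Fin n) F

/-- All coordinates lie in the subfield. -/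
def Rt (F₀ : Subfield F) (x : Fin n → F) : Prop := ∀ k, x k ∈ F₀

/-- The matrix carries rational vectors to rational ones. -/
def IsR (F₀ : Subfield F) (g : GL (Fin n) F) : Prop :=
  ∀ x, Rt F₀ x → Rt F₀ ((g : Matrix (Fin n) (Fin n) F) *ᵥ x)

/-- `g` is `x ↦ x + (h(x,y) + c h(x,e)) e - h(x,e) y`. -/
def IsG (q : ℕ) (g : GL (Fin n) F) (e y : Fin n → F) (c : F) : Prop :=
  ∀ x, (g : Matrix (Fin n) (Fin n) F) *ᵥ x =
    x + (Cfsg.hermForm n F q x y + c * Cfsg.hermForm n F q x e) • e - Cfsg.hermForm n F q x e • y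

/-- That element lies in `M`. -/
def Has (q : ℕ) (M : Subgroup (GL (Fin n) F)) (e y : Fin n → F) (c : F) : Prop := ∃ g ∈ M, IsG q g e y c

local notation "V" => (Fin n → F)
local notation "G" => GL (Fin n) F
local notation "h" => Cfsg.hermForm n F q
local notation:max "↟" g:max => ((g : GL (Fin n) F) : Matrix (Fin n) (Fin n) F)

variable {M : Subgroup (GL (Fin n) F)} {F₀ : Subfield F} (C : Conj F q)

theorem mem_conj {x : F} (hx : x ∈ F₀) : C.σ x ∈ F₀ := by rw [C.pow]; exact pow_mem hx q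

theorem rt_single (k : Fin n) : Rt F₀ (Pi.single k (1 : F)) := fun j => by
  rcases eq_or_ne j k with rfl | hj <;> simp [*, one_mem, zero_mem]

theorem rt_smul {c : F} (hc : c ∈ F₀) {x : V} (hx : Rt F₀ x) : Rt F₀ (c • x) := fun j => mul_mem hc (hx j)

theorem rt_sub {x y : V} (hx : Rt F₀ x) (hy : Rt F₀ y) : Rt F₀ (x - y) := fun j => sub_mem (hx j) (hy j)

theorem rt_add {x y : V} (hx : Rt F₀ x) (hy : Rt F₀ y) : Rt F₀ (x + y) := fun j => add_mem (hx j) (hy j)

theorem rt_zero : Rt F₀ (0 : V) := fun _ => zero_mem _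

theorem rt_neg {x : V} (hx : Rt F₀ x) : Rt F₀ (-x) := fun j => neg_mem (hx j)

theorem rt_form {x y : V} (hx : Rt F₀ x) (hy : Rt F₀ y) : h x y ∈ F₀ :=
  Subfield.sum_mem _ fun i _ => mul_mem (hx i) (pow_mem (hy i) q)

include C in
theorem comm_zero {x y : V} (hxy : h x y = 0) : h y x = 0 := by rw [← form_conj C, hxy, map_zero]

omit [Fintype F] in
theorem form_neg_left (x y : V) : h (-x) y = -h x y := by
  rw [← neg_one_smul F x, UGeom.form_smul_left, neg_one_mul]

include C in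
theorem form_neg_right (x y : V) : h x (-y) = -h x y := by
  rw [← neg_one_smul F y, form_smul_right C, map_neg, map_one, neg_one_mul]

theorem mem_form {g : G} (hg : g ∈ S n F q) (x y : V) : h (↟g *ᵥ x) (↟g *ᵥ y) = h x y :=
  GeoSU.mem_GU.1 hg.1 x y

theorem isG_fix {g : G} {e y : V} {c : F} (hg : IsG q g e y c) {x : V} (hxe : h x e = 0) (hxy : h x y = 0) :
    ↟g *ᵥ x = x := by
  rw [hg, hxe, hxy]; simp

include C in
theorem has_one (e : V) : Has q M e 0 0 := ⟨1, one_mem _, fun x => by simp [UGeom.form_zero_right C]⟩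

include C in
theorem has_mul {e y y' : V} {c c' : F} (he : h e e = 0) (hy : h e y = 0) (hy' : h e y' = 0)
    (h1 : Has q M e y c) (h2 : Has q M e y' c') : Has q M e (y + y') (c + c' - h y' y) := by
  obtain ⟨g, hg, eg⟩ := h1
  obtain ⟨g', hg', eg'⟩ := h2
  refine ⟨g * g', mul_mem hg hg', fun x => ?_⟩
  have he' : h y' e = 0 := comm_zero C hy'
  rw [Units.val_mul, ← mulVec_mulVec, eg', mulVec_sub, mulVec_add, mulVec_smul, mulVec_smul, eg, eg, eg,
    he, hy, he']
  simp only [form_add_right C]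
  module

include C in
theorem isG_inv {g : G} {e y : V} {c : F} (he : h e e = 0) (hy : h e y = 0) (hg : IsG q g e y c) :
    IsG q g⁻¹ e (-y) (-c - h y y) := fun x => by
  have e1 : ↟g *ᵥ (x + (h x (-y) + (-c - h y y) * h x e) • e - h x e • (-y)) = x := by
    have he' : h y e = 0 := comm_zero C hy
    rw [mulVec_sub, mulVec_add, mulVec_smul, mulVec_smul, mulVec_neg, hg, hg, hg, he, hy, he', form_neg_right C]
    module
  conv_lhs => rw [← e1]
  exact GeoFull.inv_mulVec_cancel g _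

include C in
theorem has_inv {e y : V} {c : F} (he : h e e = 0) (hy : h e y = 0) (h1 : Has q M e y c) :
    Has q M e (-y) (-c - h y y) := by
  obtain ⟨g, hg, eg⟩ := h1
  exact ⟨g⁻¹, inv_mem hg, isG_inv C he hy eg⟩

theorem isG_conj {k g : G} (hk : k ∈ S n F q) {e y : V} {c : F} (hg : IsG q g e y c) :
    IsG q (k * g * k⁻¹) (↟k *ᵥ e) (↟k *ᵥ y) c := fun x => by
  have e1 : ∀ z, h (↟(k⁻¹) *ᵥ x) z = h x (↟k *ᵥ z) := fun z => by
    rw [← mem_form hk, GeoFull.mulVec_inv_cancel]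
  rw [Units.val_mul, Units.val_mul, ← mulVec_mulVec, ← mulVec_mulVec, hg, mulVec_sub, mulVec_add, mulVec_smul,
    mulVec_smul, GeoFull.mulVec_inv_cancel, e1, e1]

theorem has_conj {k : G} (hk : k ∈ M) (hks : k ∈ S n F q) {e y : V} {c : F} (h1 : Has q M e y c) :
    Has q M (↟k *ᵥ e) (↟k *ᵥ y) c := by
  obtain ⟨g, hg, eg⟩ := h1
  exact ⟨k * g * k⁻¹, mul_mem (mul_mem hk hg) (inv_mem hk), isG_conj hks eg⟩

include C in
theorem isG_swap {g : G} {x y : V} {a : F} (hg : IsG q g x (a • y) 0) : IsG q g y ((-C.σ a) • x) 0 := fun v => by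
  rw [hg, form_smul_right C, form_smul_right C, map_neg, C.invol]
  module

include C in
theorem has_swap {x y : V} {a : F} (h1 : Has q M x (a • y) 0) : Has q M y ((-C.σ a) • x) 0 := by
  obtain ⟨g, hg, eg⟩ := h1
  exact ⟨g, hg, isG_swap C eg⟩

include C in
theorem exists_isG {e y : V} {c : F} (he : h e e = 0) (hy : h e y = 0) (hc : c + C.σ c + h y y = 0) :
    ∃ g ∈ S n F q, IsG q g e y c := by
  have hye : h y e = 0 := comm_zero C hy
  have h1 : h (-y) e = 0 := by rw [form_neg_left, hye, neg_zero]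
  have h2 : c + C.σ c + h (-y) (-y) = 0 := by rw [form_neg_left, form_neg_right C, neg_neg, hc]
  set A := UGeom.eich C e (-y) c he h1 h2 with hA
  refine ⟨Matrix.SpecialLinearGroup.toGL (A : Matrix.SpecialLinearGroup (Fin n) F), ⟨?_, ?_⟩, fun x => ?_⟩
  · exact GeoSU.mem_GU.2 fun u v => A.2 u v
  · show Matrix.GeneralLinearGroup.det _ = 1
    exact Units.ext (A : Matrix.SpecialLinearGroup (Fin n) F).2
  · show ((A : Matrix.SpecialLinearGroup (Fin n) F) : Matrix (Fin n) (Fin n) F) *ᵥ x = _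
    rw [hA, UGeom.eich_mulVec, form_neg_right C]
    module

theorem isG_isR {g : G} {e y : V} {c : F} (he : Rt F₀ e) (hy : Rt F₀ y) (hc : c ∈ F₀) (hg : IsG q g e y c) :
    IsR F₀ g := fun x hx => by
  rw [hg]
  exact rt_sub (rt_add hx (rt_smul (add_mem (rt_form hx hy) (mul_mem hc (rt_form hx he))) he))
    (rt_smul (rt_form hx he) hy)

theorem isR_mul {g k : G} (hg : IsR F₀ g) (hk : IsR F₀ k) : IsR F₀ (g * k) := fun x hx => by
  rw [Units.val_mul, ← mulVec_mulVec]; exact hg _ (hk x hx)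

theorem isR_inv {g : G} (hg : IsR F₀ g) : IsR F₀ g⁻¹ := by
  have e : g⁻¹ = g ^ (orderOf g - 1) := by
    rw [inv_eq_iff_mul_eq_one, ← pow_succ', Nat.sub_add_cancel (orderOf_pos g), pow_orderOf_eq_one]
  rw [e]
  generalize orderOf g - 1 = k
  induction k with
  | zero => intro x hx; simpa using hx
  | succ k ih => rw [pow_succ]; exact isR_mul ih hg

theorem isR_mem_subfield {g : G} (hg : IsR F₀ g) : g ∈ Cfsg.Geo.subfieldSubgroup F₀ (1 : G) := by
  refine GeoSubfield.mem_subfield (one_ne_zero (α := F)) fun k j => ?_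
  rw [inv_one, Units.val_one, one_mulVec, one_mulVec, one_smul]
  exact hg _ (rt_single k) j

/-- Constants of an odd prime index. -/
structure Data (C : Conj F q) (F₀ : Subfield F) where
  r : ℕ
  hr : r.Prime
  hr3 : 3 ≤ r
  card : Fintype.card F = Nat.card F₀ ^ r
  ε : F
  ε_mem : ε ∈ F₀
  ε_ne : C.σ ε ≠ ε
  t : F
  t_mem : t ∈ F₀
  t_norm : t * C.σ t = -1

variable {C}

/-- The skew element. -/
def Data.δ (D : Data C F₀) : F := D.ε - C.σ D.ε

theorem Data.δ_mem (D : Data C F₀) : D.δ ∈ F₀ := sub_mem D.ε_mem (mem_conj C D.ε_mem)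

theorem Data.δ_ne (D : Data C F₀) : D.δ ≠ 0 := sub_ne_zero.2 D.ε_ne.symm

theorem Data.δ_skew (D : Data C F₀) : D.δ + C.σ D.δ = 0 := by
  rw [Data.δ, map_sub, C.invol]; ring

theorem Data.σ_δ (D : Data C F₀) : C.σ D.δ = -D.δ := by linear_combination D.δ_skew

theorem Data.quad (D : Data C F₀) {x a b : F} (ha : a ∈ F₀) (hb : b ∈ F₀) (e : x * x = a * x + b) : x ∈ F₀ :=
  SubMaxSp.mem_of_quad D.hr D.hr3 D.card ha hb e

/-- Every rational fixed element is a rational trace. -/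
theorem Data.exists_trace (D : Data C F₀) {a : F} (ha : a ∈ F₀) (haf : C.σ a = a) :
    ∃ c ∈ F₀, c + C.σ c = a := by
  obtain ⟨w, hw, hw'⟩ : ∃ w ∈ F₀, w + C.σ w ≠ 0 := by
    by_cases h2 : (1 : F) + 1 = 0
    · refine ⟨D.ε, D.ε_mem, fun e => D.ε_ne ?_⟩
      linear_combination e - D.ε * h2
    · exact ⟨1, one_mem _, by rwa [map_one]⟩
  refine ⟨a / (w + C.σ w) * w, mul_mem (div_mem ha (add_mem hw (mem_conj C hw))) hw, ?_⟩
  rw [map_mul, map_div₀, map_add, C.invol, haf, add_comm (C.σ w) w]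
  field_simp

/-- Rationality from two conjugates. -/
theorem Data.mem_of_twist (D : Data C F₀) {a b : F} (h1 : a + b ∈ F₀)
    (h2 : D.ε * a + C.σ D.ε * b ∈ F₀) : a ∈ F₀ := by
  have h3 := div_mem (sub_mem h2 (mul_mem (mem_conj C D.ε_mem) h1)) D.δ_mem
  rwa [show D.ε * a + C.σ D.ε * b - C.σ D.ε * (a + b) = a * D.δ by rw [Data.δ]; ring,
    mul_div_cancel_right₀ _ D.δ_ne] at h3

end CfsgLib.SubMaxSU
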