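import Mathlib
import Cfsg.Agent.SubMaxSU.Basic

/-!
Rational isotropic vectors supported on two coordinates.
-/

set_option autoImplicit false

namespace CfsgLib.SubMaxSU

open Matrix CfsgLib.UGeom

variable {F : Type*} [Field F] [Fintype F] {n q : ℕ} {C : Conj F q} {F₀ : Subfield F}

/-- A non-zero rational isotropic vector supported on the two coordinates of `p`. -/
def PV (C : Conj F q) (F₀ : Subfield F) (p : Fin n × Fin n) (x : Fin n → F) : Prop :=
  p.1 ≠ p.2 ∧ ∃ κ ∈ F₀, κ ≠ 0 ∧ ∃ s ∈ F₀, s * C.σ s = -1 ∧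
    x = κ • (Pi.single p.1 1 + s • Pi.single p.2 1)

/-- Disjoint pairs. -/
def Dj (p p' : Fin n × Fin n) : Prop := p.1 ≠ p'.1 ∧ p.1 ≠ p'.2 ∧ p.2 ≠ p'.1 ∧ p.2 ≠ p'.2

theorem Dj.symm {p p' : Fin n × Fin n} (h : Dj p p') : Dj p' p :=
  ⟨h.1.symm, h.2.2.1.symm, h.2.1.symm, h.2.2.2.symm⟩

local notation "V" => (Fin n → F)
local notation "h" => Cfsg.hermForm n F q

variable {p p' : Fin n × Fin n}

theorem form_pair (x : V) (p : Fin n × Fin n) (s : F) :
    h x (Pi.single p.1 1 + s • Pi.single p.2 1) = x p.1 + C.σ s * x p.2 := by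
  rw [UGeom.form_add_right C, UGeom.form_smul_right C, form_single_right C, form_single_right C]

theorem PV.rt {x : V} (hx : PV C F₀ p x) : Rt F₀ x := by
  obtain ⟨-, κ, hκ, -, s, hs, -, rfl⟩ := hx
  exact rt_smul hκ (rt_add (rt_single _) (rt_smul hs (rt_single _)))

theorem PV.ne_zero {x : V} (hx : PV C F₀ p x) : x ≠ 0 := by
  obtain ⟨hp, κ, -, hκ0, s, -, -, rfl⟩ := hx
  intro e
  simpa [hp.symm, hp, hκ0] using congrFun e p.1

theorem PV.smul {x : V} (hx : PV C F₀ p x) {c : F} (hc : c ∈ F₀) (hc0 : c ≠ 0) : PV C F₀ p (c • x) := by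
  obtain ⟨hp, κ, hκ, hκ0, s, hs, hs', rfl⟩ := hx
  exact ⟨hp, c * κ, mul_mem hc hκ, mul_ne_zero hc0 hκ0, s, hs, hs', smul_smul _ _ _⟩

theorem PV.iso {x : V} (hx : PV C F₀ p x) : h x x = 0 := by
  obtain ⟨hp, κ, -, -, s, -, hs, rfl⟩ := hx
  rw [UGeom.form_smul_left, UGeom.form_smul_right C, form_pair (C := C)]
  have e : 1 + C.σ s * s = 0 := by linear_combination hs
  simp [hp, hp.symm, e]

theorem PV.orth {x y : V} (hx : PV C F₀ p x) (hy : PV C F₀ p' y) (hd : Dj p p') : h x y = 0 := by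
  obtain ⟨-, κ, -, -, s, -, -, rfl⟩ := hx
  obtain ⟨-, κ', -, -, s', -, -, rfl⟩ := hy
  rw [UGeom.form_smul_left, UGeom.form_smul_right C, form_pair (C := C)]
  simp [hd.1.symm, hd.2.1.symm, hd.2.2.1.symm, hd.2.2.2.symm]

variable (D : Data C F₀)
include D

theorem exists_pv (hp : p.1 ≠ p.2) : PV C F₀ p (Pi.single p.1 1 + D.t • Pi.single p.2 1) :=
  ⟨hp, 1, one_mem _, one_ne_zero, D.t, D.t_mem, D.t_norm, (one_smul _ _).symm⟩

theorem PV.dual {x : V} (hx : PV C F₀ p x) : ∃ w, PV C F₀ p w ∧ h x w = 1 := by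
  obtain ⟨hp, κ, hκ, hκ0, s, hs, hs', rfl⟩ := hx
  have hε0 : D.ε ≠ 0 := fun e => D.ε_ne (by rw [e, map_zero])
  set u := D.ε / C.σ D.ε with hu
  have hσε : C.σ D.ε ≠ 0 := (map_ne_zero C.σ).2 hε0
  have huF : u ∈ F₀ := div_mem D.ε_mem (mem_conj C D.ε_mem)
  have hN : u * C.σ u = 1 := by rw [hu, map_div₀, C.invol]; field_simp
  set w₀ : V := Pi.single p.1 1 + (s * u) • Pi.single p.2 1
  set η := κ * (1 + C.σ (s * u) * s) with hη
  have he : h (κ • (Pi.single p.1 (1 : F) + s • Pi.single p.2 1) : V) w₀ = η := by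
    rw [UGeom.form_smul_left, form_pair (C := C)]
    simp [hp, hp.symm, hη]
  have hη0 : η ≠ 0 := by
    refine mul_ne_zero hκ0 ?_
    rw [map_mul, show 1 + C.σ s * C.σ u * s = 1 + C.σ u * (s * C.σ s) by ring, hs']
    intro e
    have h2 : C.σ u = 1 := by linear_combination -e
    rw [hu, map_div₀, C.invol, div_eq_one_iff_eq hε0] at h2
    exact D.ε_ne h2
  have hηF : η ∈ F₀ := mul_mem hκ (add_mem (one_mem _) (mul_mem (mem_conj C (mul_mem hs huF)) hs))
  refine ⟨(C.σ η)⁻¹ • w₀, ⟨hp, _, inv_mem (mem_conj C hηF), inv_ne_zero ((map_ne_zero C.σ).2 hη0), s * u,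
    mul_mem hs huF, ?_, rfl⟩, ?_⟩
  · rw [map_mul]; linear_combination (u * C.σ u) * hs' - hN
  · rw [UGeom.form_smul_right C, map_inv₀, C.invol, he, inv_mul_cancel₀ hη0]

omit D in
/-- A vector orthogonal to two dual vectors of a pair vanishes on it. -/
theorem perp_pair {x y : V} (hx : PV C F₀ p x) (hy : PV C F₀ p y) (hxy : h x y ≠ 0) {w : V}
    (h1 : h w x = 0) (h2 : h w y = 0) : w p.1 = 0 ∧ w p.2 = 0 := by
  obtain ⟨hp, κ, -, hκ0, s, -, hs, rfl⟩ := hx
  obtain ⟨-, κ', -, hκ0', s', -, -, rfl⟩ := hy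
  rw [UGeom.form_smul_right C, form_pair (C := C), mul_eq_zero, map_eq_zero] at h1 h2
  have e1 := h1.resolve_left hκ0
  have e2 := h2.resolve_left hκ0'
  have hne : C.σ s - C.σ s' ≠ 0 := fun e => hxy (by
    rw [UGeom.form_smul_left, UGeom.form_smul_right C, form_pair (C := C)]
    have : 1 + C.σ s' * s = 0 := by linear_combination hs - s * e
    simp [hp, hp.symm, this])
  have h0 : w p.2 = 0 := (mul_eq_zero.1 (by linear_combination e1 - e2 : (C.σ s - C.σ s') * w p.2 = 0)).resolve_left hne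
  exact ⟨by linear_combination e1 - C.σ s * h0, h0⟩

/-- Induction over the rational vectors vanishing on a pair. -/
theorem rat_ind (hn : 4 ≤ n) (Q : V → Prop) (hadd : ∀ x y, Q x → Q y → Q (x + y)) (h0 : Q 0)
    (hsmul : ∀ c ∈ F₀, ∀ x, Q x → Q (c • x)) (hz : ∀ p' z, Dj p p' → PV C F₀ p' z → Q z) {w : V} (hw : Rt F₀ w)
    (h1 : w p.1 = 0) (h2 : w p.2 = 0) : Q w := by
  classical
  have hsingle : ∀ k, k ≠ p.1 → k ≠ p.2 → Q (Pi.single k 1) := by
    intro k hk1 hk2
    have hlt : ({p.1, p.2, k} : Finset (Fin n)).card < (Finset.univ : Finset (Fin n)).card := by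
      have := Finset.card_le_three (a := p.1) (b := p.2) (c := k)
      simp only [Finset.card_univ, Fintype.card_fin]
      omega
    obtain ⟨l, -, hl⟩ := Finset.exists_mem_notMem_of_card_lt_card hlt
    simp only [Finset.mem_insert, Finset.mem_singleton, not_or] at hl
    have hd : Dj p (k, l) := ⟨Ne.symm hk1, Ne.symm hl.1, Ne.symm hk2, Ne.symm hl.2.1⟩
    have hz₁ := exists_pv D (p := (k, l)) (Ne.symm hl.2.2)
    obtain ⟨z₂, hz₂, hne⟩ := PV.dual D hz₁
    obtain ⟨-, κ, hκ, hκ0, s, hs, hs', rfl⟩ := hz₂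
    have hts : D.t - s ≠ 0 := fun e => by
      rw [sub_eq_zero] at e
      rw [UGeom.form_smul_right C, form_pair (C := C)] at hne
      simp [hl.2.2, Ne.symm hl.2.2, ← e] at hne
      exact one_ne_zero (by linear_combination -hne + C.σ κ * D.t_norm : (1 : F) = 0)
    have hq2 := hsmul _ (inv_mem hκ) _ (hz (k, l) _ hd ⟨Ne.symm hl.2.2, κ, hκ, hκ0, s, hs, hs', rfl⟩)
    rw [inv_smul_smul₀ hκ0] at hq2
    have hq1 := hz (k, l) _ hd hz₁
    have h3 := hadd _ _ (hsmul _ (div_mem (neg_mem hs) (sub_mem D.t_mem hs)) _ hq1)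
      (hsmul _ (div_mem D.t_mem (sub_mem D.t_mem hs)) _ hq2)
    convert h3 using 1
    funext o
    simp only [Pi.add_apply, Pi.smul_apply, smul_eq_mul]
    field_simp
    ring
  have hsum : ∀ T : Finset (Fin n), Q (∑ k ∈ T, w k • (Pi.single k 1 : V)) := by
    intro T
    induction T using Finset.induction_on with
    | empty => simpa using h0
    | insert k T hk ih =>
      rw [Finset.sum_insert hk]
      refine hadd _ _ ?_ ih
      rcases eq_or_ne (w k) 0 with e | e
      · rw [e, zero_smul]; exact h0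
      · exact hsmul _ (hw k) _ (hsingle k (fun e' => e (e' ▸ h1)) (fun e' => e (e' ▸ h2)))
  have e : w = ∑ k, w k • (Pi.single k 1 : V) := by
    funext o
    simp [Finset.sum_apply, Pi.single_apply]
  rw [e]
  exact hsum _

/-- Induction over the rational vectors by isotropic vectors not orthogonal to `e`. -/
theorem rat_induction (hn : 4 ≤ n) {e f : V} (he : PV C F₀ p e) (hf : PV C F₀ p f) (hef : h e f = 1) (Q : V → Prop)
    (hadd : ∀ x y, Q x → Q y → Q (x + y)) (hsmul : ∀ c ∈ F₀, ∀ x, Q x → Q (c • x))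
    (hz : ∀ z, Rt F₀ z → h z z = 0 → h z e ≠ 0 → Q z) {x : V} (hx : Rt F₀ x) : Q x := by
  have hfe : h f e = 1 := by rw [← UGeom.form_conj C, hef, map_one]
  have hQf : Q f := hz f hf.rt hf.iso (by rw [hfe]; exact one_ne_zero)
  have h0 : Q 0 := by simpa using hsmul 0 (zero_mem _) f hQf
  have hneg : ∀ y, Q y → Q (-y) := fun y hy => by simpa using hsmul (-1) (neg_mem (one_mem _)) y hy
  have hQe : Q e := by
    have h1 := hz (f + D.δ • e) (rt_add hf.rt (rt_smul D.δ_mem he.rt)) (by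
      simp only [UGeom.form_add_left, UGeom.form_add_right C, UGeom.form_smul_left, UGeom.form_smul_right C,
        hf.iso, he.iso, hef, hfe]
      linear_combination D.δ_skew)
      (by rw [UGeom.form_add_left, UGeom.form_smul_left, he.iso, hfe, mul_zero, add_zero]; exact one_ne_zero)
    have h2 := hsmul _ (inv_mem D.δ_mem) _ (hadd _ _ h1 (hneg _ hQf))
    rwa [show f + D.δ • e + -f = D.δ • e by abel, inv_smul_smul₀ D.δ_ne] at h2
  set a := h x f with ha
  set b := h x e with hb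
  set w := x - a • e - b • f with hw
  have hwR : Rt F₀ w := rt_sub (rt_sub hx (rt_smul (rt_form hx hf.rt) he.rt)) (rt_smul (rt_form hx he.rt) hf.rt)
  have hwe : h w e = 0 := by
    simp only [hw, UGeom.form_sub_left, UGeom.form_smul_left, he.iso, hfe]; ring
  have hwf : h w f = 0 := by
    simp only [hw, UGeom.form_sub_left, UGeom.form_smul_left, hf.iso, hef]; ring
  obtain ⟨w1, w2⟩ := perp_pair he hf (by rw [hef]; exact one_ne_zero) hwe hwf
  have hQw : Q w := rat_ind D hn Q hadd h0 hsmul (fun p' z hd hz' => by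
    have h1 := hz (f + z) (rt_add hf.rt hz'.rt) (by
      simp only [UGeom.form_add_left, UGeom.form_add_right C, hf.iso, hz'.iso, hf.orth hz' hd, hz'.orth hf hd.symm]
      ring)
      (by rw [UGeom.form_add_left, hz'.orth he hd.symm, hfe, add_zero]; exact one_ne_zero)
    have h2 := hadd _ _ h1 (hneg _ hQf)
    rwa [show f + z + -f = z by abel] at h2) hwR w1 w2
  rw [show x = a • e + b • f + w by rw [hw]; abel]
  exact hadd _ _ (hadd _ _ (hsmul _ (rt_form hx hf.rt) _ hQe) (hsmul _ (rt_form hx he.rt) _ hQf)) hQw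

/-- An isotropic rational vector meeting `u` and `e`. -/
theorem exists_between (hn : 4 ≤ n) {e f : V} (he : PV C F₀ p e) (hf : PV C F₀ p f) (hef : h e f = 1) {u : V}
    (hu : u ≠ 0) : ∃ z, Rt F₀ z ∧ h z z = 0 ∧ h z e ≠ 0 ∧ h u z ≠ 0 := by
  by_contra hall
  push Not at hall
  refine hu (funext fun k => ?_)
  rw [← form_single_right C u k]
  exact rat_induction D hn he hf hef (fun x => h u x = 0)
    (fun x y a b => by rw [UGeom.form_add_right C, a, b, add_zero])
    (fun c _ x a => by rw [UGeom.form_smul_right C, a, mul_zero]) hall (rt_single k)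

end CfsgLib.SubMaxSU
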