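import Mathlib
import Cfsg.Agent.SubMaxSU.Pairs

/-!
The coefficients of the root groups of a group containing the rational special unitary maps.
-/

set_option autoImplicit false

namespace CfsgLib.SubMaxSU

open Matrix CfsgLib.UGeom

variable {F : Type*} [Field F] [Fintype F] {n q : ℕ}

/-- `H` lies between the rational maps and `SU`. -/
structure Setting (q : ℕ) (H : Subgroup (GL (Fin n) F)) (F₀ : Subfield F) : Prop where
  big : 13 ≤ n
  rat : ∀ g ∈ S n F q, IsR F₀ g → g ∈ H
  le : H ≤ S n F q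

/-- The coefficient occurs in all rational root groups of `H`. -/
def MemA (C : Conj F q) (H : Subgroup (GL (Fin n) F)) (F₀ : Subfield F) (a : F) : Prop :=
  ∀ (p p' : Fin n × Fin n) (x y : Fin n → F), Dj p p' → PV C F₀ p x → PV C F₀ p' y → Has q H x (a • y) 0

variable {C : Conj F q} {H : Subgroup (GL (Fin n) F)} {F₀ : Subfield F}

local notation "V" => (Fin n → F)
local notation "G" => GL (Fin n) F
local notation "h" => Cfsg.hermForm n F q
local notation:max "↟" g:max => ((g : GL (Fin n) F) : Matrix (Fin n) (Fin n) F)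

omit [Fintype F] in
theorem exists_pair (hn : 13 ≤ n) (L : Finset (Fin n)) (hL : L.card ≤ 11) :
    ∃ p : Fin n × Fin n, p.1 ≠ p.2 ∧ p.1 ∉ L ∧ p.2 ∉ L := by
  classical
  have h1 : L.card < (Finset.univ : Finset (Fin n)).card := by simp; omega
  obtain ⟨a, -, ha⟩ := Finset.exists_mem_notMem_of_card_lt_card h1
  have h2 : (insert a L).card < (Finset.univ : Finset (Fin n)).card := by
    have := Finset.card_insert_le a L
    simp; omega
  obtain ⟨b, -, hb⟩ := Finset.exists_mem_notMem_of_card_lt_card h2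
  simp only [Finset.mem_insert, not_or] at hb
  exact ⟨(a, b), Ne.symm hb.1, ha, hb.2⟩

omit [Fintype F] in
/-- A pair avoiding three given ones. -/
theorem exists_pair3 (hn : 13 ≤ n) (p₁ p₂ p₃ p₄ : Fin n × Fin n) :
    ∃ p : Fin n × Fin n, p.1 ≠ p.2 ∧ Dj p p₁ ∧ Dj p p₂ ∧ Dj p p₃ ∧ Dj p p₄ := by
  classical
  obtain ⟨p, hp, h1, h2⟩ := exists_pair hn [p₁.1, p₁.2, p₂.1, p₂.2, p₃.1, p₃.2, p₄.1, p₄.2].toFinset
    ((List.toFinset_card_le _).trans (by simp))
  simp only [List.mem_toFinset, List.mem_cons, List.not_mem_nil, or_false, not_or] at h1 h2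
  exact ⟨p, hp, ⟨h1.1, h1.2.1, h2.1, h2.2.1⟩, ⟨h1.2.2.1, h1.2.2.2.1, h2.2.2.1, h2.2.2.2.1⟩,
    ⟨h1.2.2.2.2.1, h1.2.2.2.2.2.1, h2.2.2.2.2.1, h2.2.2.2.2.2.1⟩,
    ⟨h1.2.2.2.2.2.2.1, h1.2.2.2.2.2.2.2, h2.2.2.2.2.2.2.1, h2.2.2.2.2.2.2.2⟩⟩

variable (D : Data C F₀) (T : Setting q H F₀)
include D T

theorem has_rat {e y : V} {c : F} (he : Rt F₀ e) (hy : Rt F₀ y) (hc : c ∈ F₀) (hee : h e e = 0) (hey : h e y = 0)
    (hcc : c + C.σ c + h y y = 0) : Has q H e y c := by
  obtain ⟨g, hg, eg⟩ := exists_isG C hee hey hcc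
  exact ⟨g, T.rat g hg (isG_isR he hy hc eg), eg⟩

/-- Change the second vector. -/
theorem step {p p' p'' : Fin n × Fin n} {x y y'' : V} {a c : F} (hx : PV C F₀ p x) (hy : PV C F₀ p' y)
    (hy'' : PV C F₀ p'' y'') (d : Dj p p') (d1 : Dj p p'') (d2 : Dj p' p'') (hh : Has q H x (a • y) c) :
    Has q H x (a • y'') 0 := by
  obtain ⟨w, hw, hyw⟩ := PV.dual D hy
  obtain ⟨k, hk, ek⟩ := has_rat D T hw.rt (rt_neg hy''.rt) (zero_mem F₀) hw.iso
    (by rw [form_neg_right C, hw.orth hy'' d2, neg_zero])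
    (by rw [map_zero, form_neg_left, form_neg_right C, hy''.iso]; ring)
  have hkx : ↟k *ᵥ x = x :=
    isG_fix ek (hx.orth hw d) (by rw [form_neg_right C, hx.orth hy'' d1, neg_zero])
  have hky : ↟k *ᵥ y = y + y'' := by
    rw [ek, hyw, form_neg_right C, hy.orth hy'' d2]; module
  have h1 := has_conj hk (T.le hk) hh
  rw [hkx, mulVec_smul, hky] at h1
  have hxy : h x (a • y) = 0 := by rw [UGeom.form_smul_right C, hx.orth hy d, mul_zero]
  have h2 := has_inv C hx.iso hxy hh
  have h3 := has_mul C hx.iso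
    (show h x (a • (y + y'')) = 0 by
      rw [UGeom.form_smul_right C, UGeom.form_add_right C, hx.orth hy d, hx.orth hy'' d1, add_zero, mul_zero])
    (show h x (-(a • y)) = 0 by rw [form_neg_right C, hxy, neg_zero]) h1 h2
  rw [show a • (y + y'') + -(a • y) = a • y'' by module] at h3
  convert h3 using 2
  simp only [form_neg_left, UGeom.form_smul_left, UGeom.form_smul_right C, UGeom.form_add_right C, hy.iso,
    hy.orth hy'' d2]
  ring

/-- One instance gives membership. -/
theorem memA_of {p p' : Fin n × Fin n} {x y : V} {a c : F} (hx : PV C F₀ p x) (hy : PV C F₀ p' y) (d : Dj p p')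
    (hh : Has q H x (a • y) c) : MemA C H F₀ a := by
  intro r r' u v dr hu hv
  obtain ⟨s, hs, ds1, ds2, ds3, ds4⟩ := exists_pair3 T.big p p' r r'
  obtain ⟨s', hs', ds1', ds2', ds3', ds4'⟩ := exists_pair3 T.big p s r r'
  have hz := exists_pv D hs
  have hz' := exists_pv D hs'
  have a1 := step D T hx hy hz d ds1.symm ds2.symm hh
  have a2 := step D T hx hz hz' ds1.symm ds1'.symm ds2'.symm a1
  have a3 := has_swap C a2
  -- now change `x` to `u`
  have a4 := step D T hz' hx hz ds1' ds2' ds1.symm a3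
  have a5 := step D T hz' hz hu ds2' ds3' ds3 a4
  have a6 := has_swap C a5
  rw [map_neg, C.invol, neg_neg] at a6
  exact step D T hu hz' hv ds3'.symm dr ds4' a6

/-- A transvection coefficient occurs in the root groups. -/
theorem memA_of_tv {p : Fin n × Fin n} {x : V} {c : F} (hx : PV C F₀ p x) (hc : c + C.σ c = 0)
    (hh : Has q H x 0 c) : MemA C H F₀ (C.σ c) := by
  obtain ⟨p', hp', d', -, -, -⟩ := exists_pair3 T.big p p p p
  obtain ⟨w, hw, hxw⟩ := PV.dual D hx
  have hz := exists_pv D hp'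
  set z : V := Pi.single p'.1 1 + D.t • Pi.single p'.2 1
  have d := d'.symm
  obtain ⟨k, hk, ek⟩ := has_rat D T hw.rt (rt_neg hz.rt) (zero_mem F₀) hw.iso
    (by rw [form_neg_right C, hw.orth hz d, neg_zero])
    (by rw [map_zero, form_neg_left, form_neg_right C, hz.iso]; ring)
  have hkx : ↟k *ᵥ x = x + z := by rw [ek, hxw, form_neg_right C, hx.orth hz d]; module
  have h1 := has_conj hk (T.le hk) hh
  rw [hkx, mulVec_zero] at h1
  obtain ⟨g, hg, eg⟩ := h1
  obtain ⟨g', hg', eg'⟩ := has_inv C hx.iso (UGeom.form_zero_right C x) hh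
  refine memA_of D T hz hx d' (c := c) ⟨g * g', mul_mem hg hg', fun v => ?_⟩
  rw [Units.val_mul, ← mulVec_mulVec, eg, eg']
  simp only [neg_zero, UGeom.form_zero_right C, UGeom.form_zero_left, UGeom.form_add_left,
    UGeom.form_smul_left, UGeom.form_sub_left, UGeom.form_add_right C, UGeom.form_smul_right C, C.invol,
    smul_zero, sub_zero, zero_add, hx.iso, hx.orth hz d, mul_zero, add_zero,
    show C.σ c = -c by linear_combination hc, map_neg, neg_neg]
  module

/-- The coefficients form a ring containing the subfield. -/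
theorem exists_ring : ∃ A : Subring F, (∀ a, a ∈ A ↔ MemA C H F₀ a) ∧ ∀ a ∈ F₀, a ∈ A := by
  have h0 : ∀ a ∈ F₀, MemA C H F₀ a := fun a ha p p' x y d hx hy =>
    has_rat D T hx.rt (rt_smul ha hy.rt) (zero_mem _) hx.iso
      (by rw [UGeom.form_smul_right C, hx.orth hy d, mul_zero])
      (by rw [map_zero, UGeom.form_smul_left, UGeom.form_smul_right C, hy.iso]; ring)
  have hneg : ∀ a, MemA C H F₀ a → MemA C H F₀ (-a) := fun a ha p p' x y d hx hy => by
    have h1 := has_inv C hx.iso (by rw [UGeom.form_smul_right C, hx.orth hy d, mul_zero]) (ha p p' x y d hx hy)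
    rwa [← neg_smul, UGeom.form_smul_left, UGeom.form_smul_right C, hy.iso, mul_zero, mul_zero, neg_zero,
      sub_zero] at h1
  refine ⟨{ carrier := {a | MemA C H F₀ a}
            one_mem' := h0 1 (one_mem _)
            zero_mem' := h0 0 (zero_mem _)
            add_mem' := fun {a b} ha hb p p' x y d hx hy => by
              have h1 := has_mul C hx.iso (by rw [UGeom.form_smul_right C, hx.orth hy d, mul_zero])
                (by rw [UGeom.form_smul_right C, hx.orth hy d, mul_zero]) (ha p p' x y d hx hy) (hb p p' x y d hx hy)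
              rwa [← add_smul, UGeom.form_smul_left, UGeom.form_smul_right C, hy.iso, mul_zero, mul_zero, add_zero,
                sub_zero] at h1
            neg_mem' := fun {a} ha => hneg a ha
            mul_mem' := ?_ }, fun a => Iff.rfl, h0⟩
  intro a b ha hb
  obtain ⟨p, hp, -, -, -, -⟩ := exists_pair3 T.big (⟨0, by linarith [T.big]⟩, ⟨0, by linarith [T.big]⟩)
    (⟨0, by linarith [T.big]⟩, ⟨0, by linarith [T.big]⟩) (⟨0, by linarith [T.big]⟩, ⟨0, by linarith [T.big]⟩)
    (⟨0, by linarith [T.big]⟩, ⟨0, by linarith [T.big]⟩)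
  obtain ⟨p', hp', d', -, -, -⟩ := exists_pair3 T.big p p p p
  obtain ⟨p'', hp'', d1', d2', -, -⟩ := exists_pair3 T.big p p' p p
  have hx := exists_pv D hp
  have hy := exists_pv D hp'
  have hz := exists_pv D hp''
  set x : V := Pi.single p.1 1 + D.t • Pi.single p.2 1
  set y : V := Pi.single p'.1 1 + D.t • Pi.single p'.2 1
  set z : V := Pi.single p''.1 1 + D.t • Pi.single p''.2 1
  obtain ⟨w, hw, hyw⟩ := PV.dual D hy
  obtain ⟨k, hk, ek⟩ := hb p' p'' w z d2'.symm hw hz
  have hkx : ↟k *ᵥ x = x :=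
    isG_fix ek (hx.orth hw d'.symm) (by rw [UGeom.form_smul_right C, hx.orth hz d1'.symm, mul_zero])
  have hky : ↟k *ᵥ y = y - b • z := by
    rw [ek, hyw, UGeom.form_smul_right C, hy.orth hz d2'.symm]; module
  have h1 := has_conj hk (T.le hk) (ha p p' x y d'.symm hx hy)
  rw [hkx, mulVec_smul, hky] at h1
  have hxy : h x (a • y) = 0 := by rw [UGeom.form_smul_right C, hx.orth hy d'.symm, mul_zero]
  have h3 := has_mul C hx.iso
    (show h x (a • (y - b • z)) = 0 by
      rw [UGeom.form_smul_right C, UGeom.form_sub_right C, hx.orth hy d'.symm, UGeom.form_smul_right C,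
        hx.orth hz d1'.symm]; ring)
    (show h x (-(a • y)) = 0 by rw [form_neg_right C, hxy, neg_zero]) h1
    (has_inv C hx.iso hxy (ha p p' x y d'.symm hx hy))
  rw [show a • (y - b • z) + -(a • y) = (-(a * b)) • z by module] at h3
  have h4 := hneg _ (memA_of D T hx hz d1'.symm h3)
  rwa [neg_neg] at h4

end CfsgLib.SubMaxSU
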