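import Mathlib
import Cfsg.Agent.SubMaxSU.Alg

/-!
All coefficients: the whole special unitary group.
-/

set_option autoImplicit false

namespace CfsgLib.SubMaxSU

open Matrix CfsgLib.UGeom

variable {F : Type*} [Field F] [Fintype F] {n q : ℕ}
variable {C : Conj F q} {H : Subgroup (GL (Fin n) F)} {F₀ : Subfield F}

local notation "V" => (Fin n → F)
local notation "G" => GL (Fin n) F
local notation "h" => Cfsg.hermForm n F q
local notation:max "↟" g:max => ((g : GL (Fin n) F) : Matrix (Fin n) (Fin n) F)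

variable (D : Data C F₀)
include D

theorem line_direct {u v : V} (hu : Rt F₀ u) (hv : Rt F₀ v) (huu : h u u = 0) (hvv : h v v = 0) (huv : h u v ≠ 0) :
    ∃ g ∈ S n F q, IsR F₀ g ∧ ∃ κ : F, κ ≠ 0 ∧ ↟g *ᵥ u = κ • v := by
  set ζ := C.σ (D.δ / h u v) with hζ
  have hζF : ζ ∈ F₀ := mem_conj C (div_mem D.δ_mem (rt_form hu hv))
  have h1 : h u (ζ • v) = D.δ := by
    rw [UGeom.form_smul_right C, hζ, C.invol, div_mul_cancel₀ _ huv]
  have h2 : h (ζ • v) u = -D.δ := by rw [← form_conj C, h1, D.σ_δ]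
  have hw : h (u - ζ • v) (u - ζ • v) = 0 := by
    rw [UGeom.form_sub_left, UGeom.form_sub_right C, UGeom.form_sub_right C, h1, h2, huu, UGeom.form_smul_left,
      UGeom.form_smul_right C, hvv]
    ring
  have hc : D.δ⁻¹ + C.σ D.δ⁻¹ + h (0 : V) 0 = 0 := by
    rw [map_inv₀, D.σ_δ, UGeom.form_zero_left, inv_neg, add_neg_cancel, add_zero]
  obtain ⟨g, hg, eg⟩ := exists_isG C hw (UGeom.form_zero_right C _) hc
  refine ⟨g, hg, isG_isR (rt_sub hu (rt_smul hζF hv)) rt_zero (inv_mem D.δ_mem) eg, ζ, ?_, ?_⟩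
  · rw [hζ]; exact (map_ne_zero C.σ).2 (div_ne_zero D.δ_ne huv)
  · rw [eg, UGeom.form_zero_right C, UGeom.form_sub_right C, huu, h1, zero_sub, mul_neg,
      inv_mul_cancel₀ D.δ_ne]
    module

/-- Moving the line of an isotropic rational vector to a pair vector. -/
theorem line_move (hn : 4 ≤ n) {p : Fin n × Fin n} {e f : V} (he : PV C F₀ p e) (hf : PV C F₀ p f)
    (hef : h e f = 1) {u : V} (hu : Rt F₀ u) (huu : h u u = 0) (hu0 : u ≠ 0) :
    ∃ g ∈ S n F q, IsR F₀ g ∧ ∃ κ : F, κ ≠ 0 ∧ ↟g *ᵥ u = κ • e := by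
  obtain ⟨z, hz, hzz, hze, huz⟩ := exists_between D hn he hf hef hu0
  obtain ⟨g₁, hg₁, r₁, κ₁, k₁, e₁⟩ := line_direct D hu hz huu hzz huz
  obtain ⟨g₂, hg₂, r₂, κ₂, k₂, e₂⟩ := line_direct D hz he.rt hzz he.iso hze
  exact ⟨g₂ * g₁, mul_mem hg₂ hg₁, isR_mul r₂ r₁, κ₁ * κ₂, mul_ne_zero k₁ k₂, by
    rw [Units.val_mul, ← mulVec_mulVec, e₁, mulVec_smul, e₂, smul_smul]⟩

variable (T : Setting q H F₀)
include T

omit D T in
theorem cent_of_has {w : V} (hw : h w w = 0) (hh : ∀ c : F, c + C.σ c = 0 → Has q H w 0 c) :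
    GeoSU.Cent C H w := by
  refine ⟨hw, fun c hc g hg => ?_⟩
  obtain ⟨g', hg', eg'⟩ := hh c hc
  rwa [show g = g' from GeoFull.gl_ext fun x => by
    rw [hg, eg', UGeom.form_zero_right C, smul_zero, sub_zero, zero_add]
    simp [GeoSU.stdHerm_apply]]

theorem eq_top_case (hA : ∀ a, MemA C H F₀ a) : H = S n F q := by
  classical
  have hn := T.big
  let p : Fin n × Fin n := (⟨0, by omega⟩, ⟨1, by omega⟩)
  have hp : p.1 ≠ p.2 := by simp [p]
  have he := exists_pv D hp
  set e : V := Pi.single p.1 1 + D.t • Pi.single p.2 1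
  obtain ⟨f, hf, hef⟩ := PV.dual D he
  have hfe : h f e = 1 := by rw [← form_conj C, hef, map_one]
  obtain ⟨p', hp', d', -, -, -⟩ := exists_pair3 hn p p p p
  have hz := exists_pv D hp'
  set z : V := Pi.single p'.1 1 + D.t • Pi.single p'.2 1
  obtain ⟨w, hw, hzw⟩ := PV.dual D hz
  have hwz : h w z = 1 := by rw [← form_conj C, hzw, map_one]
  have hew : h e w = 0 := he.orth hw d'.symm
  have hsq : ∀ a : F, Has q H e 0 (a * C.σ a * D.δ) := by
    intro a
    obtain ⟨k, hk, ek⟩ := hA a p p' e z d'.symm he hz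
    have hkw : ↟k *ᵥ w = w + C.σ a • e := by
      rw [ek, UGeom.form_smul_right C, hwz, comm_zero C hew]; module
    obtain ⟨g₀, hg₀, eg₀⟩ := has_rat D T hw.rt rt_zero D.δ_mem hw.iso (UGeom.form_zero_right C _)
      (by rw [UGeom.form_zero_left, add_zero]; exact D.δ_skew)
    obtain ⟨g₁, hg₁, eg₁⟩ := has_conj hk (T.le hk) ⟨g₀, hg₀, eg₀⟩
    obtain ⟨g₀', hg₀', eg₀'⟩ := has_inv C hw.iso (UGeom.form_zero_right C _) ⟨g₀, hg₀, eg₀⟩
    have h1 : Has q H e ((-D.δ * C.σ (C.σ a)) • w) (a * C.σ a * D.δ) := by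
      refine ⟨g₁ * g₀', mul_mem hg₁ hg₀', fun v => ?_⟩
      rw [hkw, mulVec_zero] at eg₁
      rw [Units.val_mul, ← mulVec_mulVec, eg₁, eg₀']
      simp only [neg_zero, UGeom.form_zero_right C, UGeom.form_zero_left, UGeom.form_add_left,
        UGeom.form_smul_left, UGeom.form_add_right C, UGeom.form_smul_right C, UGeom.form_sub_left,
        smul_zero, sub_zero, zero_add, hw.iso, comm_zero C hew, mul_zero, add_zero,
        map_mul, map_neg, C.invol, D.σ_δ, neg_neg]
      module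
    have hwv : ∀ b : F, h e (b • w) = 0 := fun b => by rw [UGeom.form_smul_right C, hew, mul_zero]
    have h2 := has_mul C he.iso (hwv _) (hwv _) h1 (hA (D.δ * C.σ (C.σ a)) p p' e w d'.symm he hw)
    rw [← add_smul, neg_mul, neg_add_cancel, zero_smul, UGeom.form_smul_left, UGeom.form_smul_right C, hw.iso,
      mul_zero, mul_zero, add_zero, sub_zero] at h2
    exact h2
  have hTe : ∀ c : F, c + C.σ c = 0 → Has q H e 0 c := by
    intro c hc
    rcases eq_or_ne c 0 with rfl | hc0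
    · exact has_one C e
    obtain ⟨b, -, hb⟩ := Hermitian.exists_norm C.ne_id C.invol (div_ne_zero hc0 D.δ_ne)
      (by rw [map_div₀, D.σ_δ, show C.σ c = -c by linear_combination hc, neg_div_neg_eq])
    have := hsq b
    rwa [mul_comm b, hb, div_mul_cancel₀ _ D.δ_ne] at this
  have hCe : GeoSU.Cent C H e := cent_of_has he.iso hTe
  have hCrat : ∀ u : V, Rt F₀ u → h u u = 0 → GeoSU.Cent C H u := by
    intro u hu huu
    rcases eq_or_ne u 0 with rfl | hu0
    · have := GeoSU.cent_smul C 0 hCe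
      rwa [zero_smul] at this
    obtain ⟨g, hg, gR, κ, hκ, eg⟩ := line_move D (by omega) he hf hef hu huu hu0
    have hgH := inv_mem (T.rat g hg gR)
    have := GeoSU.cent_map C hgH (T.le hgH).1 (GeoSU.cent_smul C κ hCe)
    rwa [← eg, GeoFull.inv_mulVec_cancel] at this
  have hCf := hCrat f hf.rt hf.iso
  refine le_antisymm T.le (GeoSU.le_of_cent C (by omega) fun v hv => ?_)
  rcases eq_or_ne v 0 with rfl | hv0
  · exact hCrat 0 rt_zero (UGeom.form_zero_left _)
  -- meet `e`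
  obtain ⟨g₀, hg₀, hβ⟩ : ∃ g ∈ H, h (↟g *ᵥ v) e ≠ 0 := by
    by_cases h0 : h v e = 0
    · obtain ⟨u, hu, huu, hue, hvu⟩ := exists_between D (by omega) he hf hef hv0
      obtain ⟨g, hg, eg⟩ := has_rat D T hu rt_zero D.δ_mem huu (UGeom.form_zero_right C _)
        (by rw [UGeom.form_zero_left, add_zero]; exact D.δ_skew)
      refine ⟨g, hg, ?_⟩
      rw [eg, UGeom.form_zero_right C, smul_zero, sub_zero, zero_add, UGeom.form_add_left, h0, zero_add,
        UGeom.form_smul_left]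
      exact mul_ne_zero (mul_ne_zero D.δ_ne hvu) hue
    · exact ⟨1, one_mem _, by simpa using h0⟩
  -- clear the other coordinates
  let Q : V → Prop := fun w => h w e = 0 ∧ ∀ (c : F) (u : V), h u e ≠ 0 →
    ∃ g ∈ H, ∃ a : F, ↟g *ᵥ u = u + a • e + c • w
  have hkill : ∀ w : V, Rt F₀ w → w p.1 = 0 → w p.2 = 0 → Q w := fun w hw h1 h2 => by
    refine rat_ind D (by omega) Q (fun x y hx hy => ⟨by rw [UGeom.form_add_left, hx.1, hy.1, add_zero],
      fun c u hu => ?_⟩) ⟨UGeom.form_zero_left _, fun c u _ => ⟨1, one_mem _, 0, by simp⟩⟩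
      (fun κ _ x hx => ⟨by rw [UGeom.form_smul_left, hx.1, mul_zero], fun c u hu => by
        rw [smul_smul]; exact hx.2 (c * κ) u hu⟩) (fun p'' y hd hy => ⟨hy.orth he hd.symm, fun c u hu => ?_⟩)
      hw h1 h2
    · obtain ⟨g, hg, a, eg⟩ := hx.2 c u hu
      have hu' : h (↟g *ᵥ u) e ≠ 0 := by
        rw [eg, UGeom.form_add_left, UGeom.form_add_left, UGeom.form_smul_left, UGeom.form_smul_left, he.iso, hx.1]
        simpa using hu
      obtain ⟨g', hg', a', eg'⟩ := hy.2 c (↟g *ᵥ u) hu'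
      exact ⟨g' * g, mul_mem hg' hg, a + a', by rw [Units.val_mul, ← mulVec_mulVec, eg', eg]; module⟩
    · obtain ⟨g, hg, eg⟩ := hA (-c / h u e) p p'' e y hd he hy
      exact ⟨g, hg, C.σ (-c / h u e) * h u y, by
        rw [eg, UGeom.form_smul_right C, smul_smul, mul_div_cancel₀ _ hu]; module⟩
  have hclear : ∀ (T : Finset (Fin n)) (u : V), h u e ≠ 0 →
      ∃ g ∈ H, ∃ a : F, ↟g *ᵥ u = u + a • e - ∑ k ∈ T.filter (fun k => k ≠ p.1 ∧ k ≠ p.2),
        (↟g₀ *ᵥ v - h (↟g₀ *ᵥ v) f • e - h (↟g₀ *ᵥ v) e • f) k • Pi.single k 1 := by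
    intro T
    induction T using Finset.induction_on with
    | empty => exact fun u _ => ⟨1, one_mem _, 0, by simp⟩
    | insert k T hk ih =>
      intro u hu
      by_cases hkp : k ≠ p.1 ∧ k ≠ p.2
      · obtain ⟨g, hg, a, eg⟩ := ih u hu
        obtain ⟨hq, hkl⟩ := hkill (Pi.single k 1) (rt_single k) (by simp [hkp.1.symm]) (by simp [hkp.2.symm])
        have hsum0 : h (∑ k ∈ T.filter (fun k => k ≠ p.1 ∧ k ≠ p.2),
            (↟g₀ *ᵥ v - h (↟g₀ *ᵥ v) f • e - h (↟g₀ *ᵥ v) e • f) k • (Pi.single k 1 : V)) e = 0 := by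
          refine Finset.sum_induction _ (fun x => h x e = 0)
            (fun x y a b => by rw [UGeom.form_add_left, a, b, add_zero]) (UGeom.form_zero_left _) fun l hl => ?_
          rw [UGeom.form_smul_left,
            (hkill (Pi.single l 1) (rt_single l) (by simp [(Finset.mem_filter.1 hl).2.1.symm])
              (by simp [(Finset.mem_filter.1 hl).2.2.symm])).1, mul_zero]
        have hu' : h (↟g *ᵥ u) e ≠ 0 := by
          rw [eg, UGeom.form_sub_left, UGeom.form_add_left, UGeom.form_smul_left, he.iso, hsum0]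
          simpa using hu
        obtain ⟨g', hg', a', eg'⟩ := hkl (-(↟g₀ *ᵥ v - h (↟g₀ *ᵥ v) f • e - h (↟g₀ *ᵥ v) e • f) k) _ hu'
        refine ⟨g' * g, mul_mem hg' hg, a + a', ?_⟩
        rw [Finset.filter_insert, if_pos hkp, Finset.sum_insert (by simp [hk]), Units.val_mul, ← mulVec_mulVec,
          eg', eg]
        module
      · rw [Finset.filter_insert, if_neg hkp]
        exact ih u hu
  obtain ⟨g₁, hg₁, a, e₁⟩ := hclear Finset.univ _ hβ
  set u := ↟g₀ *ᵥ v with hu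
  set w' := u - h u f • e - h u e • f with hw'
  have hwe : h w' e = 0 := by
    simp only [hw', UGeom.form_sub_left, UGeom.form_smul_left, he.iso, hfe]; ring
  have hwf : h w' f = 0 := by
    simp only [hw', UGeom.form_sub_left, UGeom.form_smul_left, hf.iso, hef]; ring
  obtain ⟨w1, w2⟩ := perp_pair he hf (by rw [hef]; exact one_ne_zero) hwe hwf
  have hsum : ∑ k ∈ Finset.univ.filter (fun k => k ≠ p.1 ∧ k ≠ p.2), w' k • (Pi.single k 1 : V) = w' := by
    rw [Finset.sum_filter_of_ne fun k _ hk => ⟨fun e' => hk (by rw [e', w1, zero_smul]),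
      fun e' => hk (by rw [e', w2, zero_smul])⟩]
    funext o
    simp [Finset.sum_apply, Pi.single_apply]
  rw [hsum] at e₁
  set α := h u f + a
  set β := h u e
  have e₂ : ↟g₁ *ᵥ u = α • e + β • f := by rw [e₁, hw']; module
  have hiso : α * C.σ β + β * C.σ α = 0 := by
    have h1 : h (↟g₁ *ᵥ u) (↟g₁ *ᵥ u) = 0 := by rw [mem_form (T.le hg₁), hu, mem_form (T.le hg₀), hv]
    rw [e₂] at h1
    simpa [UGeom.form_add_left, UGeom.form_add_right C, UGeom.form_smul_left, UGeom.form_smul_right C, he.iso,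
      hf.iso, hef, hfe, mul_comm, add_comm] using h1
  obtain ⟨g₂, hg₂, eg₂⟩ := hTe (-α / β) (by
    rw [map_div₀, map_neg]
    have : C.σ β ≠ 0 := (map_ne_zero C.σ).2 hβ
    field_simp
    linear_combination -hiso)
  have e₃ : ↟(g₂ * g₁ * g₀) *ᵥ v = β • f := by
    rw [Units.val_mul, Units.val_mul, ← mulVec_mulVec, ← mulVec_mulVec, ← hu, e₂, eg₂, UGeom.form_zero_right C]
    simp only [UGeom.form_add_left, UGeom.form_smul_left, he.iso, hfe, mul_zero, zero_add, mul_one,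
      div_mul_cancel₀ _ hβ]
    module
  have hgH : g₂ * g₁ * g₀ ∈ H := mul_mem (mul_mem hg₂ hg₁) hg₀
  have := GeoSU.cent_map C (inv_mem hgH) (T.le (inv_mem hgH)).1 (GeoSU.cent_smul C β hCf)
  rwa [← e₃, GeoFull.inv_mulVec_cancel] at this

end CfsgLib.SubMaxSU
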