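import Mathlib
import Cfsg.Agent.SubMaxSU.Top

/-!
Elements of `H` fixing an isotropic rational vector are rational.
-/

set_option autoImplicit false

namespace CfsgLib.SubMaxSU

open Matrix CfsgLib.UGeom

variable {F : Type*} [Field F] [Fintype F] {n q : ℕ}

/-- The case in which all coefficients are rational. -/
structure Tight (C : Conj F q) (H : Subgroup (GL (Fin n) F)) (F₀ : Subfield F) : Prop extends Setting q H F₀ where
  small : ∀ a, MemA C H F₀ a → a ∈ F₀

variable {C : Conj F q} {H : Subgroup (GL (Fin n) F)} {F₀ : Subfield F}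

local notation "V" => (Fin n → F)
local notation "G" => GL (Fin n) F
local notation "h" => Cfsg.hermForm n F q
local notation:max "↟" g:max => ((g : GL (Fin n) F) : Matrix (Fin n) (Fin n) F)

variable (D : Data C F₀) (T : Tight C H F₀) {p : Fin n × Fin n} {e f : Fin n → F}
include D T

/-- Off the pair of a fixed vector the images are rational. -/
theorem proj_rat (he : PV C F₀ p e) (hf : PV C F₀ p f) (hef : h e f = 1) {g : G} (hg : g ∈ H) (hge : ↟g *ᵥ e = e)
    {y : V} (hy : Rt F₀ y) (hye : h y e = 0) : Rt F₀ (↟g *ᵥ y - h (↟g *ᵥ y) f • e) := by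
  have hS := T.le hg
  set x := ↟g *ᵥ y with hx
  have hxe : h x e = 0 := by rw [hx, ← hge, mem_form hS, hye]
  have hex : h e x = 0 := comm_zero C hxe
  obtain ⟨c, hc, hc'⟩ := D.exists_trace (a := -h y y) (neg_mem (rt_form hy hy)) (by rw [map_neg, form_conj C])
  have h1 : Has q H e x c := by
    have := has_conj hg hS (has_rat D T.toSetting he.rt hy hc he.iso (comm_zero C hye) (by rw [hc']; ring))
    rwa [hge] at this
  have hdet : ∀ p' z, Dj p p' → PV C F₀ p' z → h x z ∈ F₀ := by
    intro p' z hd hz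
    obtain ⟨k, hk, ek⟩ := has_rat D T.toSetting hz.rt rt_zero D.δ_mem hz.iso (UGeom.form_zero_right C _)
      (by rw [UGeom.form_zero_left, add_zero]; exact D.δ_skew)
    have hez : h e z = 0 := he.orth hz hd
    have hke : ↟k *ᵥ e = e := isG_fix ek hez (UGeom.form_zero_right C _)
    have hkx : ↟k *ᵥ x = x + (D.δ * h x z) • z := by
      rw [ek, UGeom.form_zero_right C]; module
    have h2 := has_conj hk (T.le hk) h1
    rw [hke, hkx] at h2
    have h3 := has_mul C he.iso
      (show h e (x + (D.δ * h x z) • z) = 0 by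
        rw [UGeom.form_add_right C, hex, UGeom.form_smul_right C, hez, mul_zero, add_zero])
      (show h e (-x) = 0 by rw [form_neg_right C, hex, neg_zero]) h2 (has_inv C he.iso hex h1)
    rw [show x + (D.δ * h x z) • z + -x = (D.δ * h x z) • z by abel] at h3
    have h4 := div_mem (T.small _ (memA_of D T.toSetting he hz hd h3)) D.δ_mem
    rwa [mul_div_cancel_left₀ _ D.δ_ne] at h4
  set w := x - h x f • e with hw
  have hwe : h w e = 0 := by rw [hw, UGeom.form_sub_left, UGeom.form_smul_left, hxe, he.iso, mul_zero, sub_zero]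
  have hwf : h w f = 0 := by rw [hw, UGeom.form_sub_left, UGeom.form_smul_left, hef, mul_one, sub_self]
  obtain ⟨w1, w2⟩ := perp_pair he hf (by rw [hef]; exact one_ne_zero) hwe hwf
  intro k
  rcases eq_or_ne k p.1 with rfl | hk1
  · rw [w1]; exact zero_mem _
  rcases eq_or_ne k p.2 with rfl | hk2
  · rw [w2]; exact zero_mem _
  have hwz : ∀ p' z, Dj p p' → PV C F₀ p' z → h w z ∈ F₀ := fun p' z hd hz => by
    rw [hw, UGeom.form_sub_left, UGeom.form_smul_left, he.orth hz hd, mul_zero, sub_zero]; exact hdet p' z hd hz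
  rw [← form_single_right C w k]
  exact rat_ind D (by linarith [T.big]) (fun v => h w v ∈ F₀)
    (fun a b ha hb => by rw [UGeom.form_add_right C]; exact add_mem ha hb)
    (by rw [UGeom.form_zero_right C]; exact zero_mem _)
    (fun c hc a ha => by rw [UGeom.form_smul_right C]; exact mul_mem (mem_conj C hc) ha) hwz (rt_single k)
    (by simp [Ne.symm hk1]) (by simp [Ne.symm hk2])

theorem perp_rat (he : PV C F₀ p e) (hf : PV C F₀ p f) (hef : h e f = 1) {g : G} (hg : g ∈ H) (hge : ↟g *ᵥ e = e)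
    {y : V} (hy : Rt F₀ y) (hye : h y e = 0) : Rt F₀ (↟g *ᵥ y) := by
  have hfe : h f e = 1 := by rw [← form_conj C, hef, map_one]
  have key : ∀ k : G, k ∈ H → ↟k *ᵥ e = e → ∀ p' z, Dj p p' → PV C F₀ p' z → Rt F₀ (↟(k⁻¹) *ᵥ z) := by
    intro k hk hke p' z hd hz
    have hki : ↟(k⁻¹) *ᵥ e = e := by
      conv_lhs => rw [← hke]
      exact GeoFull.inv_mulVec_cancel k e
    set α := h (↟(k⁻¹) *ᵥ z) f
    set zb := ↟(k⁻¹) *ᵥ z - α • e with hzb
    have hzR : Rt F₀ zb := proj_rat D T he hf hef (inv_mem hk) hki hz.rt (hz.orth he hd.symm)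
    have hkz : ↟k *ᵥ zb = z + (-α) • e := by
      rw [hzb, mulVec_sub, mulVec_smul, GeoFull.mulVec_inv_cancel, hke]; module
    have hez := he.orth hz hd
    have hzi : h zb zb = 0 := by
      rw [← mem_form (T.le hk) zb zb, hkz]
      simp only [UGeom.form_add_left, UGeom.form_add_right C, UGeom.form_smul_left, UGeom.form_smul_right C,
        hz.iso, he.iso, hez, hz.orth he hd.symm]
      ring
    obtain ⟨g₁, hg₁, e₁⟩ := has_conj hk (T.le hk) (has_rat D T.toSetting hzR rt_zero D.δ_mem hzi
      (UGeom.form_zero_right C _) (by rw [UGeom.form_zero_left, add_zero]; exact D.δ_skew))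
    rw [hkz, mulVec_zero] at e₁
    obtain ⟨g₀, hg₀, e₀⟩ := has_rat D T.toSetting hz.rt rt_zero (neg_mem D.δ_mem) hz.iso
      (UGeom.form_zero_right C _) (by
        rw [UGeom.form_zero_left, add_zero, map_neg]; linear_combination -D.δ_skew)
    have h3 : Has q H e ((C.σ (D.δ * -α)) • z) (D.δ * (-α * C.σ (-α))) := by
      refine ⟨g₁ * g₀, mul_mem hg₁ hg₀, fun v => ?_⟩
      rw [Units.val_mul, ← mulVec_mulVec, e₁, e₀]
      simp only [UGeom.form_zero_right C, UGeom.form_add_left, UGeom.form_smul_left, UGeom.form_add_right C,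
        UGeom.form_smul_right C, smul_zero, sub_zero, zero_add, hz.iso, hz.orth he hd.symm, mul_zero, add_zero,
        map_mul, map_neg, C.invol, D.σ_δ]
      module
    have h4 := T.small _ (memA_of D T.toSetting he hz hd h3)
    have h5 := div_mem (mem_conj C h4) (neg_mem D.δ_mem)
    rw [C.invol, show D.δ * -α / -D.δ = α by rw [mul_neg, neg_div_neg_eq, mul_div_cancel_left₀ _ D.δ_ne]] at h5
    rw [show ↟(k⁻¹) *ᵥ z = α • e + zb by rw [hzb]; abel]
    exact rt_add (rt_smul h5 he.rt) hzR
  have hpv : ∀ p' z, Dj p p' → PV C F₀ p' z → Rt F₀ (↟g *ᵥ z) := fun p' z hd hz => by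
    have := key g⁻¹ (inv_mem hg) (by
      conv_lhs => rw [← hge]
      exact GeoFull.inv_mulVec_cancel g e) p' z hd hz
    rwa [inv_inv] at this
  set w := y - h y f • e with hw
  have hwR : Rt F₀ w := rt_sub hy (rt_smul (rt_form hy hf.rt) he.rt)
  obtain ⟨w1, w2⟩ := perp_pair he hf (by rw [hef]; exact one_ne_zero)
    (by rw [hw, UGeom.form_sub_left, UGeom.form_smul_left, hye, he.iso, mul_zero, sub_zero] : h w e = 0)
    (by rw [hw, UGeom.form_sub_left, UGeom.form_smul_left, hef, mul_one, sub_self] : h w f = 0)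
  have hQ : Rt F₀ (↟g *ᵥ w) := rat_ind D (by linarith [T.big]) (fun v => Rt F₀ (↟g *ᵥ v))
    (fun a b ha hb => by rw [mulVec_add]; exact rt_add ha hb) (by rw [mulVec_zero]; exact rt_zero)
    (fun c hc a ha => by rw [mulVec_smul]; exact rt_smul hc ha) hpv hwR w1 w2
  rw [show y = h y f • e + w by rw [hw]; abel, mulVec_add, mulVec_smul, hge]
  exact rt_add (rt_smul (rt_form hy hf.rt) he.rt) hQ

omit e f in
theorem fix_pv_isR {e : V} (he : PV C F₀ p e) {g : G} (hg : g ∈ H) (hge : ↟g *ᵥ e = e) : IsR F₀ g := by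
  obtain ⟨f, hf, hef⟩ := PV.dual D he
  have hfe : h f e = 1 := by rw [← form_conj C, hef, map_one]
  have hS := T.le hg
  have hgi : ↟(g⁻¹) *ᵥ e = e := by
    conv_lhs => rw [← hge]
    exact GeoFull.inv_mulVec_cancel g e
  set x := ↟g *ᵥ f with hx
  have hxe : h x e = 1 := by rw [hx, ← hge, mem_form hS, hfe]
  set α := h x f
  set w := x - α • e - f with hw
  have hwe : h w e = 0 := by
    rw [hw, UGeom.form_sub_left, UGeom.form_sub_left, UGeom.form_smul_left, hxe, hfe, he.iso]; ring
  have hwf : h w f = 0 := by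
    rw [hw, UGeom.form_sub_left, UGeom.form_sub_left, UGeom.form_smul_left, hef, hf.iso]; ring
  obtain ⟨w1, w2⟩ := perp_pair he hf (by rw [hef]; exact one_ne_zero) hwe hwf
  have hwR : Rt F₀ w := by
    intro k
    rcases eq_or_ne k p.1 with rfl | hk1
    · rw [w1]; exact zero_mem _
    rcases eq_or_ne k p.2 with rfl | hk2
    · rw [w2]; exact zero_mem _
    rw [← form_single_right C w k]
    refine rat_ind (p := p) D (by linarith [T.big]) (fun v => h w v ∈ F₀)
      (fun a b ha hb => by rw [UGeom.form_add_right C]; exact add_mem ha hb)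
      (by rw [UGeom.form_zero_right C]; exact zero_mem _)
      (fun c hc a ha => by rw [UGeom.form_smul_right C]; exact mul_mem (mem_conj C hc) ha) (fun p' z hd hz => ?_)
      (rt_single k) (by simp [Ne.symm hk1]) (by simp [Ne.symm hk2])
    have h1 := rt_form (q := q) hf.rt (perp_rat D T he hf hef (inv_mem hg) hgi hz.rt (hz.orth he hd.symm))
    rw [← mem_form hS, GeoFull.mulVec_inv_cancel, ← hx] at h1
    rwa [hw, UGeom.form_sub_left, UGeom.form_sub_left, UGeom.form_smul_left, he.orth hz hd, hf.orth hz hd,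
      mul_zero, sub_zero, sub_zero]
  have hα : α + C.σ α + h w w = 0 := by
    have h1 : h x x = 0 := by rw [hx, mem_form hS, hf.iso]
    rw [show x = α • e + f + w by rw [hw]; abel] at h1
    simp only [UGeom.form_add_left, UGeom.form_add_right C, UGeom.form_smul_left, UGeom.form_smul_right C, he.iso,
      hf.iso, hef, hfe, hwe, hwf, comm_zero C hwe, comm_zero C hwf] at h1
    linear_combination h1
  obtain ⟨α₀, hα₀, hα₀'⟩ := D.exists_trace (a := -h w w) (neg_mem (rt_form hwR hwR)) (by rw [map_neg, form_conj C])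
  set c := α₀ - α with hc
  have hcs : c + C.σ c = 0 := by rw [hc, map_sub]; linear_combination hα₀' - hα
  obtain ⟨k, hk, ek⟩ := exists_isG C he.iso (UGeom.form_zero_right C e)
    (by rw [UGeom.form_zero_left, add_zero]; exact hcs)
  have hR : IsR F₀ (k * g) := by
    intro y hy
    set b := h y e
    have hy' : Rt F₀ (y - b • f) := rt_sub hy (rt_smul (rt_form hy he.rt) hf.rt)
    have hy'e : h (y - b • f) e = 0 := by rw [UGeom.form_sub_left, UGeom.form_smul_left, hfe]; ring
    have h1 := perp_rat D T he hf hef hg hge hy' hy'e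
    have h2 : h (↟g *ᵥ (y - b • f)) e = 0 := by rw [← hge, mem_form hS, hy'e]
    have e1 : ↟(k * g) *ᵥ y = ↟g *ᵥ (y - b • f) + b • (α₀ • e + f + w) := by
      conv_lhs => rw [show y = (y - b • f) + b • f by abel, Units.val_mul, ← mulVec_mulVec, mulVec_add, mulVec_add,
        isG_fix ek h2 (UGeom.form_zero_right C _), mulVec_smul, mulVec_smul, ← hx, ek, hxe,
        UGeom.form_zero_right C]
      rw [hc, hw]
      module
    rw [e1]
    exact rt_add h1 (rt_smul (rt_form hy he.rt) (rt_add (rt_add (rt_smul hα₀ he.rt) hf.rt) hwR))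
  have hkg : k * g ∈ H := T.rat _ (mul_mem hk hS) hR
  have hcF : c ∈ F₀ := by
    have h1 := T.small _ (memA_of_tv D T.toSetting he hcs ⟨k, (Subgroup.mul_mem_cancel_right H hg).1 hkg, ek⟩)
    simpa [C.invol] using mem_conj C h1
  have := isR_mul (isR_inv (isG_isR he.rt rt_zero hcF ek)) hR
  rwa [inv_mul_cancel_left] at this

omit e f p in
/-- An element of `H` fixing a non-zero isotropic rational vector is rational. -/
theorem fix_isR {g : G} (hg : g ∈ H) {u : V} (hu : Rt F₀ u) (hu0 : u ≠ 0) (huu : h u u = 0)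
    (hgu : ↟g *ᵥ u = u) : IsR F₀ g := by
  have hn := T.big
  let p : Fin n × Fin n := (⟨0, by omega⟩, ⟨1, by omega⟩)
  have he := exists_pv D (p := p) (by simp [p])
  obtain ⟨f, hf, hef⟩ := PV.dual D he
  obtain ⟨k, hk, kR, κ, hκ, ek⟩ := line_move D (by omega) he hf hef hu huu hu0
  have hkH := T.rat k hk kR
  have hfix := fix_pv_isR D T he (mul_mem (mul_mem hkH hg) (inv_mem hkH)) (g := k * g * k⁻¹) (by
    refine smul_right_injective _ hκ ?_
    show κ • (↟(k * g * k⁻¹) *ᵥ _) = κ • _
    rw [← mulVec_smul, ← ek]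
    simp only [Units.val_mul, ← mulVec_mulVec, GeoFull.inv_mulVec_cancel, hgu])
  have := isR_mul (isR_mul (isR_inv kR) hfix) kR
  rwa [show k⁻¹ * (k * g * k⁻¹) * k = g by group] at this

end CfsgLib.SubMaxSU
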