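import Mathlib
import Cfsg.Agent.SubMaxSU.Fix
import Cfsg.Agent.SubMax.RankOne

/-!
Every transvection of `H` has a rational line as centre.
-/

set_option autoImplicit false

namespace CfsgLib.SubMaxSU

open Matrix CfsgLib.UGeom

variable {F : Type*} [Field F] [Fintype F] {n q : ℕ}
variable {C : Conj F q} {H : Subgroup (GL (Fin n) F)} {F₀ : Subfield F}

local notation "V" => (Fin n → F)
local notation "G" => GL (Fin n) F
local notation "h" => Cfsg.hermForm n F q
local notation:max "↟" g:max => ((g : GL (Fin n) F) : Matrix (Fin n) (Fin n) F)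

include C in
theorem isG_tv {g : G} {z : V} {c : F} (hg : IsG q g z 0 c) (x : V) : ↟g *ᵥ x = x + (c * h x z) • z := by
  rw [hg, UGeom.form_zero_right C, smul_zero, sub_zero, zero_add]

include C in
theorem centre_rat {g : G} {z : V} {c : F} (hR : IsR F₀ g) (hg : IsG q g z 0 c) {x y : V} (hx : Rt F₀ x)
    (hy : Rt F₀ y) : c * h x z * h z y ∈ F₀ := by
  have h1 := rt_form (q := q) (rt_sub (hR x hx) hx) hy
  rwa [isG_tv (C := C) hg, add_sub_cancel_left, UGeom.form_smul_left] at h1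

variable (D : Data C F₀) (T : Tight C H F₀)
include D T

/-- The rank one group of a generic transvection is too large. -/
theorem no_generic_aux {e₀ e₁ g₀ g₁ w : V} (re₀ : Rt F₀ e₀) (re₁ : Rt F₀ e₁) (rg₀ : Rt F₀ g₀) (rg₁ : Rt F₀ g₁)
    (h00 : h e₀ e₀ = 0) (h11 : h e₁ e₁ = 0) (h01 : h e₀ e₁ = 0) (p00 : h e₀ g₀ = 1) (p01 : h e₀ g₁ = 0)
    (p10 : h e₁ g₀ = 0) (p11 : h e₁ g₁ = 1) (hww : h w w = 0) {c : F} (hc0 : c ≠ 0)
    (hy : Has q H w 0 c) (hα0 : h e₀ w ≠ 0) (hlam : h e₁ w / h e₀ w ∉ F₀)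
    (hN : h e₁ w / h e₀ w * C.σ (h e₁ w / h e₀ w) ∉ F₀) : False := by
  classical
  have S' := T.toSetting
  set α := h e₀ w with hα
  set lam := h e₁ w / α with hlamdef
  have h10 : h e₁ e₀ = 0 := comm_zero C h01
  have he1w : h e₁ w = lam * α := by rw [hlamdef, div_mul_cancel₀ _ hα0]
  have hwi : h w e₀ = C.σ α := by rw [hα, form_conj C]
  have hwj : h w e₁ = C.σ lam * C.σ α := by rw [← map_mul, ← he1w, form_conj C]
  have hσα : C.σ α ≠ 0 := (map_ne_zero C.σ).2 hα0
  set v : V := e₁ - lam • e₀ with hv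
  have hej : e₁ = v + lam • e₀ := by rw [hv]; abel
  have hiv : h e₀ v = 0 := by rw [hv, UGeom.form_sub_right C, UGeom.form_smul_right C, h01, h00]; ring
  have hjv : h e₁ v = 0 := by rw [hv, UGeom.form_sub_right C, UGeom.form_smul_right C, h11, h10]; ring
  have hvw : h v w = 0 := by rw [hv, UGeom.form_sub_left, UGeom.form_smul_left, he1w, ← hα, sub_self]
  have hwv : h w v = 0 := comm_zero C hvw
  have hvi : h v e₀ = 0 := comm_zero C hiv
  have hvj : h v e₁ = 0 := comm_zero C hjv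
  have hvg0 : h v g₀ = -lam := by rw [hv, UGeom.form_sub_left, UGeom.form_smul_left, p10, p00]; ring
  have hvg1 : h v g₁ = 1 := by rw [hv, UGeom.form_sub_left, UGeom.form_smul_left, p11, p01]; ring
  have hg1v : h g₁ v = 1 := by rw [← form_conj C, hvg1, map_one]
  let ψ : V → F := fun x => h x w / α
  let φ : V → F := fun x => h x e₀ / C.σ α
  let res : V → V := fun x => x - ψ x • e₀ - φ x • w
  have hψi : ψ e₀ = 1 := by simp [ψ, ← hα, hα0]
  have hψw : ψ w = 0 := by simp [ψ, hww]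
  have hφi : φ e₀ = 0 := by simp [φ, h00]
  have hφw : φ w = 1 := by simp [φ, hwi, hσα]
  have hres : ∀ x, h x v = 0 → h (res x) e₀ = 0 ∧ h (res x) w = 0 ∧ h (res x) v = 0 := by
    intro x hx
    simp only [res, UGeom.form_sub_left, UGeom.form_smul_left, h00, hww, hwi, ← hα, hx, hiv, hwv, ψ, φ]
    refine ⟨?_, ?_, by ring⟩ <;> field_simp <;> ring
  let M₂ : G → Matrix (Fin 2) (Fin 2) F := fun g =>
    !![ψ (↟g *ᵥ e₀), ψ (↟g *ᵥ w); φ (↟g *ᵥ e₀), φ (↟g *ᵥ w)]
  let Fix : G → Prop := fun g => g ∈ S n F q ∧ ↟g *ᵥ v = v ∧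
    ∀ x, h x e₀ = 0 → h x w = 0 → h x v = 0 → ↟g *ᵥ x = x
  have hdec : ∀ g, Fix g → ∀ x, h x v = 0 → ↟g *ᵥ x = ψ x • (↟g *ᵥ e₀) + φ x • (↟g *ᵥ w) + res x := by
    intro g hg x hx
    obtain ⟨a, b, d⟩ := hres x hx
    have h1 := hg.2.2 _ a b d
    simp only [res, mulVec_sub, mulVec_smul] at h1
    simp only [res]
    rw [sub_eq_iff_eq_add, sub_eq_iff_eq_add] at h1
    rw [h1]; abel
  have hkeep : ∀ g, Fix g → ∀ x, h x v = 0 → h (↟g *ᵥ x) v = 0 := fun g hg x hx => by
    rw [show h (↟g *ᵥ x) v = h (↟g *ᵥ x) (↟g *ᵥ v) by rw [hg.2.1], mem_form hg.1, hx]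
  have hM2 : ∀ g g' : G, Fix g → Fix g' → M₂ (g * g') = M₂ g * M₂ g' := by
    intro g g' hg hg'
    have key : ∀ u, h u v = 0 → ψ (↟(g * g') *ᵥ u) = ψ (↟g *ᵥ e₀) * ψ (↟g' *ᵥ u) + ψ (↟g *ᵥ w) * φ (↟g' *ᵥ u) ∧
        φ (↟(g * g') *ᵥ u) = φ (↟g *ᵥ e₀) * ψ (↟g' *ᵥ u) + φ (↟g *ᵥ w) * φ (↟g' *ᵥ u) := by
      intro u hu
      have hx := hkeep g' hg' u hu
      obtain ⟨a, b, -⟩ := hres _ hx
      rw [Units.val_mul, ← mulVec_mulVec, hdec g hg _ hx]
      constructor
      · show h _ w / α = _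
        rw [UGeom.form_add_left, UGeom.form_add_left, UGeom.form_smul_left, UGeom.form_smul_left, b]
        simp only [ψ]; ring
      · show h _ e₀ / C.σ α = _
        rw [UGeom.form_add_left, UGeom.form_add_left, UGeom.form_smul_left, UGeom.form_smul_left, a]
        simp only [φ]; ring
    obtain ⟨k1, k2⟩ := key _ hiv
    obtain ⟨k3, k4⟩ := key _ hwv
    ext a b
    fin_cases a <;> fin_cases b <;> simp [M₂, Matrix.mul_apply, Fin.sum_univ_two] <;> assumption
  have hM1 : M₂ 1 = 1 := by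
    ext a b
    fin_cases a <;> fin_cases b <;> simp [M₂, hψi, hψw, hφi, hφw]
  let Gd : Subgroup G :=
    { carrier := {g | Fix g ∧ (M₂ g).det = 1}
      one_mem' := ⟨⟨one_mem _, by simp, fun x _ _ _ => by simp⟩, by rw [hM1, det_one]⟩
      mul_mem' := fun {g g'} hg hg' => by
        refine ⟨⟨mul_mem hg.1.1 hg'.1.1, by rw [Units.val_mul, ← mulVec_mulVec, hg'.1.2.1, hg.1.2.1],
          fun x a b d => by rw [Units.val_mul, ← mulVec_mulVec, hg'.1.2.2 x a b d, hg.1.2.2 x a b d]⟩, ?_⟩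
        rw [hM2 g g' hg.1 hg'.1, det_mul, hg.2, hg'.2, one_mul]
      inv_mem' := fun {g} hg => by
        have hinvfix : ∀ x, ↟g *ᵥ x = x → ↟(g⁻¹) *ᵥ x = x := fun x hx => by
          conv_lhs => rw [← hx]
          exact GeoFull.inv_mulVec_cancel g x
        have hF : Fix g⁻¹ := ⟨inv_mem hg.1.1, hinvfix _ hg.1.2.1, fun x a b d => hinvfix _ (hg.1.2.2 x a b d)⟩
        refine ⟨hF, ?_⟩
        have e3 := congrArg Matrix.det (hM2 g g⁻¹ hg.1 hF)
        rw [det_mul, hg.2, one_mul, mul_inv_cancel, hM1, det_one] at e3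
        exact e3.symm }
  obtain ⟨y, hyH, hyG⟩ := hy
  have hytv := isG_tv (C := C) hyG
  set J : Subgroup G := Subgroup.closure
    (insert y {g | g ∈ H ∧ ∃ s ∈ F₀, IsG q g e₀ 0 s ∨ IsG q g e₁ 0 s}) with hJ
  have hJH : J ≤ H := (Subgroup.closure_le _).2 (by rintro g (rfl | ⟨hg, -⟩) <;> assumption)
  have hJG : J ≤ Gd := by
    refine (Subgroup.closure_le _).2 ?_
    rintro g (rfl | ⟨hgH, s, -, hg | hg⟩)
    · refine ⟨⟨T.le hyH, by rw [hytv, hvw, mul_zero, zero_smul, add_zero],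
        fun x _ b _ => by rw [hytv, b, mul_zero, zero_smul, add_zero]⟩, ?_⟩
      simp only [M₂, hytv, hww, ← hα, ψ, φ, UGeom.form_add_left, UGeom.form_smul_left, hwi, h00, det_fin_two_of]
      field_simp; ring
    · have htv := isG_tv (C := C) hg
      refine ⟨⟨T.le hgH, by rw [htv, hvi, mul_zero, zero_smul, add_zero],
        fun x a _ _ => by rw [htv, a, mul_zero, zero_smul, add_zero]⟩, ?_⟩
      simp only [M₂, htv, hww, ← hα, ψ, φ, UGeom.form_add_left, UGeom.form_smul_left, hwi, h00, det_fin_two_of]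
      field_simp; ring
    · have htv := isG_tv (C := C) hg
      refine ⟨⟨T.le hgH, by rw [htv, hvj, mul_zero, zero_smul, add_zero],
        fun x a _ d => by
          rw [htv, show h x e₁ = h x v + C.σ lam * h x e₀ by
            rw [hej, UGeom.form_add_right C, UGeom.form_smul_right C], a, d, mul_zero, add_zero, mul_zero,
            zero_smul, add_zero]⟩, ?_⟩
      simp only [M₂, htv, hww, ← hα, ψ, φ, UGeom.form_add_left, UGeom.form_smul_left, hwi, hwj, h01, h10, h00,
        he1w, det_fin_two_of]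
      field_simp; ring
  let fm : J →* Matrix (Fin 2) (Fin 2) F :=
    { toFun := fun g => M₂ g
      map_one' := hM1
      map_mul' := fun g g' => hM2 _ _ (hJG g.2).1 (hJG g'.2).1 }
  have hfm : ∀ g : J, fm g = M₂ g := fun g => rfl
  -- vectors killed by both coordinates
  have hline : ∀ g, Fix g → ∀ u, h u v = 0 → (∀ s, h s e₀ = 0 → h s w = 0 → h s v = 0 → h u s = 0) →
      ∃ κ : F, ↟g *ᵥ u = ψ (↟g *ᵥ u) • e₀ + φ (↟g *ᵥ u) • w + κ • v := by
    intro g hg u hu horth
    set z := res (↟g *ᵥ u) with hz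
    obtain ⟨za, zb, -⟩ := hres _ (hkeep g hg u hu)
    rw [← hz] at za zb
    have hperp : ∀ s, h s e₀ = 0 → h s w = 0 → h s v = 0 → h z s = 0 := by
      intro s a b d
      have h1 : h (↟g *ᵥ u) s = 0 := by
        rw [show h (↟g *ᵥ u) s = h (↟g *ᵥ u) (↟g *ᵥ s) by rw [hg.2.2 s a b d], mem_form hg.1, horth s a b d]
      rw [hz]
      simp only [res, UGeom.form_sub_left, UGeom.form_smul_left, h1, comm_zero C a, comm_zero C b]
      ring
    refine ⟨h z g₁, ?_⟩
    have hzv : z = h z g₁ • v := ext_form C fun x => by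
      set x' := x - h x v • g₁ with hx'
      have hx'v : h x' v = 0 := by rw [hx', UGeom.form_sub_left, UGeom.form_smul_left, hg1v]; ring
      obtain ⟨a, b, d⟩ := hres x' hx'v
      have h1 := hperp _ a b d
      simp only [res, UGeom.form_sub_right C, UGeom.form_smul_right C, za, zb, mul_zero, sub_zero] at h1
      rw [hx', UGeom.form_sub_right C, UGeom.form_smul_right C, form_conj C] at h1
      rw [UGeom.form_smul_left]
      linear_combination h1
    rw [← hzv, hz]
    simp only [res]; abel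
  have hcentre : ∀ (k : G) (u : V), k ∈ H → Rt F₀ u → h u u = 0 → h e₀ (↟k *ᵥ u) = 0 →
      ∀ x y : V, Rt F₀ x → Rt F₀ y → h x (↟k *ᵥ u) * h (↟k *ᵥ u) y ∈ F₀ := by
    intro k u hk hu huu hperp x y hx hy
    obtain ⟨g, hg, eg⟩ := has_conj hk (T.le hk) (has_rat D S' hu rt_zero D.δ_mem huu (UGeom.form_zero_right C _)
      (by rw [UGeom.form_zero_left, add_zero]; exact D.δ_skew))
    rw [mulVec_zero] at eg
    have hR := fix_isR D T hg re₀ (fun e => by simp [e, UGeom.form_zero_left] at p00) h00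
      (isG_fix eg hperp (UGeom.form_zero_right C _))
    have h1 := div_mem (centre_rat (C := C) hR eg hx hy) D.δ_mem
    rwa [mul_assoc, mul_div_cancel_left₀ _ D.δ_ne] at h1
  -- no element moves `e₀` along `v`
  have shift : ∀ k : G, k ∈ H → ↟k *ᵥ v = v → ∀ μ ν : F, ↟k *ᵥ e₀ = μ • e₀ + ν • v → ν = 0 := by
    intro k hk hkv μ ν hke
    by_contra hν
    have hperp0 : h e₀ (↟k *ᵥ e₀) = 0 := by
      rw [hke, UGeom.form_add_right C, UGeom.form_smul_right C, UGeom.form_smul_right C, h00, hiv]; ring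
    have hX : h (↟k *ᵥ e₀) g₀ = μ - ν * lam := by
      rw [hke, UGeom.form_add_left, UGeom.form_smul_left, UGeom.form_smul_left, p00, hvg0]; ring
    have hY : h (↟k *ᵥ e₀) g₁ = ν := by
      rw [hke, UGeom.form_add_left, UGeom.form_smul_left, UGeom.form_smul_left, p01, hvg1]; ring
    have hσν : C.σ ν ≠ 0 := (map_ne_zero C.σ).2 hν
    have n1 := hcentre k e₀ hk re₀ h00 hperp0 g₁ g₁ rg₁ rg₁
    have n2 := hcentre k e₀ hk re₀ h00 hperp0 g₁ g₀ rg₁ rg₀
    rw [← form_conj C _ g₁, hY] at n1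
    rw [← form_conj C _ g₁, hY, hX] at n2
    have hρ : (μ - ν * lam) / ν ∈ F₀ := by
      have := div_mem n2 n1
      rwa [mul_div_mul_left _ _ hσν] at this
    set ρ := (μ - ν * lam) / ν with hρdef
    have hμ : μ = ρ * ν + ν * lam := by rw [hρdef, div_mul_cancel₀ _ hν]; ring
    have hs : ∀ s ∈ F₀, 1 + (lam + s) * ν ≠ 0 → ∃ t ∈ F₀, (lam + s) * ν * (ρ - t) = lam + t := by
      intro s hs hY'
      set u := e₁ + s • e₀ with hu
      have hku : ↟k *ᵥ u = v + (lam + s) • (μ • e₀ + ν • v) := by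
        rw [hu, hej, mulVec_add, mulVec_add, mulVec_smul, mulVec_smul, hkv, hke]; module
      have huu : h u u = 0 := by
        simp only [hu, UGeom.form_add_left, UGeom.form_add_right C, UGeom.form_smul_left, UGeom.form_smul_right C,
          h00, h01, h10, h11]; ring
      have hp : h e₀ (↟k *ᵥ u) = 0 := by
        rw [hku, UGeom.form_add_right C, UGeom.form_smul_right C, UGeom.form_add_right C, UGeom.form_smul_right C,
          UGeom.form_smul_right C, h00, hiv]; ring
      set Y := 1 + (lam + s) * ν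
      set X := -lam + (lam + s) * (ρ * ν)
      have hY1 : h (↟k *ᵥ u) g₁ = Y := by
        rw [hku, UGeom.form_add_left, UGeom.form_smul_left, UGeom.form_add_left, UGeom.form_smul_left,
          UGeom.form_smul_left, p01, hvg1]; ring
      have hX1 : h (↟k *ᵥ u) g₀ = X := by
        rw [hku, UGeom.form_add_left, UGeom.form_smul_left, UGeom.form_add_left, UGeom.form_smul_left,
          UGeom.form_smul_left, p00, hvg0, hμ]; ring
      have m1 := hcentre k u hk (rt_add re₁ (rt_smul hs re₀)) huu hp g₁ g₁ rg₁ rg₁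
      have m2 := hcentre k u hk (rt_add re₁ (rt_smul hs re₀)) huu hp g₁ g₀ rg₁ rg₀
      rw [← form_conj C _ g₁, hY1] at m1
      rw [← form_conj C _ g₁, hY1, hX1] at m2
      refine ⟨X / Y, by
        have := div_mem m2 m1
        rwa [mul_div_mul_left _ _ ((map_ne_zero C.σ).2 hY')] at this, ?_⟩
      have : X / Y * Y = X := div_mul_cancel₀ _ hY'
      linear_combination -this
    obtain ⟨s, hsF, s', hsF', hss, hY, hY'⟩ : ∃ s ∈ F₀, ∃ s' ∈ F₀, s ≠ s' ∧ 1 + (lam + s) * ν ≠ 0 ∧
        1 + (lam + s') * ν ≠ 0 := by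
      have hone : ∀ a b : F, 1 + (lam + a) * ν = 0 → 1 + (lam + b) * ν = 0 → a = b := fun a b ea eb =>
        mul_right_cancel₀ hν (by linear_combination ea - eb)
      by_cases z0 : 1 + (lam + 0) * ν = 0
      · exact ⟨1, one_mem _, D.ε, D.ε_mem, fun e => D.ε_ne (by rw [← e, map_one]),
          fun e => zero_ne_one (hone _ _ z0 e), fun e => D.ε_ne (by rw [← hone _ _ z0 e, map_zero])⟩
      · by_cases z1 : 1 + (lam + 1) * ν = 0
        · exact ⟨0, zero_mem _, D.ε, D.ε_mem, fun e => D.ε_ne (by rw [← e, map_zero]), z0,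
            fun e => D.ε_ne (by rw [← hone _ _ z1 e, map_one])⟩
        · exact ⟨0, zero_mem _, 1, one_mem _, zero_ne_one, z0, z1⟩
    obtain ⟨t, htF, et⟩ := hs s hsF hY
    obtain ⟨t', htF', et'⟩ := hs s' hsF' hY'
    have cross : (lam + t) * ((lam + s') * (ρ - t')) = (lam + t') * ((lam + s) * (ρ - t)) := by
      rw [← et, ← et']; ring
    by_cases htt : t = t'
    · subst htt
      have h0 : (lam + t) * ((ρ - t) * (s' - s)) = 0 := by linear_combination cross
      rcases mul_eq_zero.1 h0 with e | e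
      · exact hlam (by rw [show lam = -t by linear_combination e]; exact neg_mem htF)
      rcases mul_eq_zero.1 e with e | e
      · rw [e, mul_zero] at et
        exact hlam (by rw [show lam = -t by linear_combination -et]; exact neg_mem htF)
      · exact hss (by linear_combination -e)
    · have hne := sub_ne_zero.2 htt
      refine hlam (D.quad
        (div_mem (neg_mem (sub_mem (mul_mem (add_mem htF hsF') (sub_mem hρ htF'))
          (mul_mem (add_mem htF' hsF) (sub_mem hρ htF)))) (sub_mem htF htF'))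
        (div_mem (neg_mem (sub_mem (mul_mem (mul_mem htF hsF') (sub_mem hρ htF'))
          (mul_mem (mul_mem htF' hsF) (sub_mem hρ htF)))) (sub_mem htF htF')) ?_)
      field_simp
      linear_combination cross
  have hfix1 : ∀ s, h s e₀ = 0 → h s w = 0 → h s v = 0 → h e₀ s = 0 := fun s a _ _ => comm_zero C a
  have hfix2 : ∀ s, h s e₀ = 0 → h s w = 0 → h s v = 0 → h w s = 0 := fun s _ b _ => comm_zero C b
  have hyJ : y ∈ J := Subgroup.subset_closure (Set.mem_insert _ _)
  have hinjf : Function.Injective fm := by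
    refine (injective_iff_map_eq_one fm).2 fun g hg => ?_
    obtain ⟨hF, -⟩ := hJG g.2
    set k := (g : G) with hk
    have e : ∀ a b, M₂ k a b = (1 : Matrix (Fin 2) (Fin 2) F) a b := fun a b => by rw [hk, ← hfm, hg]
    have e00 := e 0 0
    have e01 := e 0 1
    have e10 := e 1 0
    have e11 := e 1 1
    simp [M₂] at e00 e01 e10 e11
    obtain ⟨ν, hν⟩ := hline k hF _ hiv hfix1
    obtain ⟨ν', hν'⟩ := hline k hF _ hwv hfix2
    rw [e00, e10, zero_smul, add_zero] at hν
    rw [e01, e11, one_smul, zero_smul, zero_add] at hν'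
    rw [shift k (hJH g.2) hF.2.1 1 ν hν, one_smul, zero_smul, add_zero] at hν
    -- the commutator with `y`
    have hν'0 : ν' = 0 := by
      have hzJ : k * y * k⁻¹ * y⁻¹ ∈ J := mul_mem (mul_mem (mul_mem g.2 hyJ) (inv_mem g.2)) (inv_mem hyJ)
      obtain ⟨hF', -⟩ := hJG hzJ
      have hG' := isG_conj (T.le (hJH g.2)) hyG
      rw [mulVec_zero, ← hk, hν'] at hG'
      have hinv := isG_inv C hww (UGeom.form_zero_right C w) hyG
      rw [neg_zero, UGeom.form_zero_right C, sub_zero] at hinv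
      have e2 := isG_tv (C := C) hinv
      have e3 := isG_tv (C := C) hG'
      have hμ := shift _ (hJH hzJ) hF'.2.1 1 (c * α * ν') (by
        rw [Units.val_mul, ← mulVec_mulVec, e2]
        rw [e3]
        simp only [UGeom.form_add_left, UGeom.form_smul_left, UGeom.form_add_right C, UGeom.form_smul_right C,
          hww, hiv, hwv, ← hα]
        module)
      exact (mul_eq_zero.1 hμ).resolve_left (mul_ne_zero hc0 hα0)
    rw [hν'0, zero_smul, add_zero] at hν'
    have hhyp : ∀ x, h x v = 0 → ↟k *ᵥ x = x := fun x hx => by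
      rw [hdec k hF x hx, hν, hν']
      simp only [res]; abel
    have hR := fix_isR D T (hJH g.2) re₀ (fun e => by simp [e, UGeom.form_zero_left] at p00) h00 hν
    refine Subtype.ext (GeoFull.gl_ext fun x => ?_)
    rw [Subgroup.coe_one, Units.val_one, one_mulVec, ← hk]
    set d := ↟k *ᵥ g₁ - g₁ with hd
    have hdR : Rt F₀ d := rt_sub (hR _ rg₁) rg₁
    have hdperp : ∀ z, h z v = 0 → h d z = 0 := fun z hz => by
      rw [hd, UGeom.form_sub_left]
      nth_rw 1 [← hhyp z hz]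
      rw [mem_form hF.1, sub_self]
    have hdv : d = h d g₁ • v := ext_form C fun x => by
      have h1 := hdperp (x - h x v • g₁) (by rw [UGeom.form_sub_left, UGeom.form_smul_left, hg1v]; ring)
      rw [UGeom.form_sub_right C, UGeom.form_smul_right C, form_conj C] at h1
      rw [UGeom.form_smul_left]
      linear_combination h1
    have hd0 : h d g₁ = 0 := by
      by_contra hne
      have h2 := rt_form (q := q) hdR rg₀
      rw [hdv, UGeom.form_smul_left, hvg0] at h2
      have h3 := div_mem h2 (rt_form (q := q) hdR rg₁)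
      rw [mul_div_cancel_left₀ _ hne] at h3
      exact hlam (by simpa using neg_mem h3)
    have hfj : ↟k *ᵥ g₁ = g₁ := by
      rw [hd0, zero_smul, hd, sub_eq_zero] at hdv; exact hdv
    have h1 := hhyp (x - h x v • g₁) (by rw [UGeom.form_sub_left, UGeom.form_smul_left, hg1v]; ring)
    rw [mulVec_sub, mulVec_smul, hfj, sub_left_inj] at h1
    exact h1
  obtain ⟨p, hp⟩ := CharP.exists F
  haveI : Fact p.Prime := ⟨CharP.char_is_prime F p⟩
  have hcast : ∀ a : ZMod p, ZMod.castHom (dvd_refl p) F a ∈ F₀ ∧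
      C.σ (ZMod.castHom (dvd_refl p) F a) = ZMod.castHom (dvd_refl p) F a := fun a => by
    rw [ZMod.castHom_apply, ZMod.cast_eq_val]
    exact ⟨natCast_mem F₀ _, map_natCast C.σ _⟩
  let cst : ZMod p → F := fun a => ZMod.castHom (dvd_refl p) F a * D.δ
  have hcard : p ^ 2 ≤ Nat.card {g : J // fm g 1 0 = 0 ∧ fm g 0 0 = 1} := by
    have hex : ∀ (u : V), Rt F₀ u → h u u = 0 → ∀ a, ∃ g ∈ H, IsG q g u 0 (cst a) ∧ cst a ∈ F₀ := by
      intro u hu huu a
      have hm : cst a ∈ F₀ := mul_mem (hcast a).1 D.δ_mem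
      obtain ⟨g, hg, eg⟩ := has_rat D S' hu rt_zero hm huu (UGeom.form_zero_right C _) (by
        simp only [cst, map_mul, (hcast a).2, D.σ_δ, UGeom.form_zero_left]; ring)
      exact ⟨g, hg, eg, hm⟩
    choose k₀ hk₀ ek₀ hm₀ using hex e₀ re₀ h00
    choose k₁ hk₁ ek₁ hm₁ using hex e₁ re₁ h11
    let t : ZMod p × ZMod p → J := fun a => ⟨k₀ a.1 * k₁ a.2, mul_mem
      (Subgroup.subset_closure (Or.inr ⟨hk₀ _, _, hm₀ a.1, Or.inl (ek₀ _)⟩))
      (Subgroup.subset_closure (Or.inr ⟨hk₁ _, _, hm₁ a.2, Or.inr (ek₁ _)⟩))⟩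
    have hval : ∀ a : ZMod p × ZMod p, ↟(k₀ a.1 * k₁ a.2) *ᵥ e₀ = e₀ ∧
        ψ (↟(k₀ a.1 * k₁ a.2) *ᵥ w) = C.σ α * (cst a.1 + cst a.2 * (lam * C.σ lam)) := fun a => by
      simp only [Units.val_mul, ← mulVec_mulVec, isG_tv (C := C) (ek₀ _), isG_tv (C := C) (ek₁ _), h00, h01, h10,
        mul_zero, zero_smul, add_zero, ψ, UGeom.form_add_left, UGeom.form_smul_left, hww, hwi, hwj, he1w, ← hα,
        true_and]
      field_simp
      ring
    have hprop : ∀ a, fm (t a) 1 0 = 0 ∧ fm (t a) 0 0 = 1 := fun a => by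
      simp only [hfm, M₂, t]
      have h1 := (hval a).1
      rw [Units.val_mul] at h1
      simp [h1, hψi, hφi]
    refine le_trans ?_ (Nat.card_le_card_of_injective
      (fun a => (⟨t a, hprop a⟩ : {g : J // fm g 1 0 = 0 ∧ fm g 0 0 = 1})) fun a b hab => ?_)
    · rw [Nat.card_prod, Nat.card_zmod, pow_two]
    · have e1 := congrArg (fun g : {g : J // fm g 1 0 = 0 ∧ fm g 0 0 = 1} => fm g.1 0 1) hab
      have e1' : C.σ α * (cst a.1 + cst a.2 * (lam * C.σ lam)) = C.σ α * (cst b.1 + cst b.2 * (lam * C.σ lam)) := by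
        rw [← (hval a).2, ← (hval b).2]
        simpa [hfm, M₂, t] using e1
      have e2 := mul_left_cancel₀ hσα e1'
      have hinj : Function.Injective cst := fun x y e =>
        (ZMod.castHom (dvd_refl p) F).injective (mul_right_cancel₀ D.δ_ne e)
      by_cases h2 : cst a.2 = cst b.2
      · rw [h2, add_left_inj] at e2
        exact Prod.ext (hinj e2) (hinj h2)
      · refine absurd ?_ hN
        rw [show lam * C.σ lam = (cst b.1 - cst a.1) / (cst a.2 - cst b.2) by
          rw [eq_div_iff (sub_ne_zero.2 h2)]; linear_combination e2]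
        exact div_mem (sub_mem (hm₀ b.1) (hm₀ a.1)) (sub_mem (hm₁ a.2) (hm₁ b.2))
  have hylow : ∃ z, fm z 1 0 ≠ 0 := by
    refine ⟨⟨y, hyJ⟩, ?_⟩
    simp [hfm, M₂, hytv, φ, UGeom.form_add_left, UGeom.form_smul_left, h00, hwi, ← hα, hc0, hα0]
  obtain ⟨d, hd10, hd00⟩ := CfsgLib.SubMax.exists_torus fm hinjf (fun g => (hJG g.2).2) hcard hylow
  -- the torus element
  obtain ⟨hF, -⟩ := hJG d.2
  set k := (d : G) with hk
  set μ := ψ (↟k *ᵥ e₀) with hμ
  have h10' : φ (↟k *ᵥ e₀) = 0 := hd10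
  have h00' : μ ≠ 1 := hd00
  obtain ⟨ν, hν⟩ := hline k hF _ hiv hfix1
  rw [h10', zero_smul, add_zero, ← hμ] at hν
  have hkH : k ∈ H := hJH d.2
  rw [shift k hkH hF.2.1 μ ν hν, zero_smul, add_zero] at hν
  have hX : ∀ s ∈ F₀, -lam + (lam + s) * μ ∈ F₀ := by
    intro s hs
    set u := e₁ + s • e₀ with hu
    have hku : ↟k *ᵥ u = v + (lam + s) • (μ • e₀) := by
      rw [hu, hej, mulVec_add, mulVec_add, mulVec_smul, mulVec_smul, hF.2.1, hν]; module
    have huu : h u u = 0 := by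
      simp only [hu, UGeom.form_add_left, UGeom.form_add_right C, UGeom.form_smul_left, UGeom.form_smul_right C,
        h00, h01, h10, h11]; ring
    have hp : h e₀ (↟k *ᵥ u) = 0 := by
      rw [hku, UGeom.form_add_right C, UGeom.form_smul_right C, UGeom.form_smul_right C, h00, hiv]; ring
    have m := hcentre k u hkH (rt_add re₁ (rt_smul hs re₀)) huu hp g₁ g₀ rg₁ rg₀
    rw [← form_conj C _ g₁, hku] at m
    simpa [UGeom.form_add_left, UGeom.form_smul_left, p00, p01, hvg0, hvg1] using m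
  have hμF : μ ∈ F₀ := by
    have := sub_mem (hX 1 (one_mem _)) (hX 0 (zero_mem _))
    rwa [show -lam + (lam + 1) * μ - (-lam + (lam + 0) * μ) = μ by ring] at this
  have h3 := div_mem (hX 0 (zero_mem _)) (sub_mem hμF (one_mem F₀))
  rw [show (-lam + (lam + 0) * μ) / (μ - 1) = lam by rw [div_eq_iff (sub_ne_zero.2 h00')]; ring] at h3
  exact hlam h3

/-- No centre meets every isotropic rational vector. -/
theorem no_generic {w : V} {c : F} (hww : h w w = 0) (hc0 : c ≠ 0) (hy : Has q H w 0 c)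
    (hinj : ∀ u, Rt F₀ u → u ≠ 0 → h u u = 0 → h u w ≠ 0) : False := by
  have hn := T.big
  let p : Fin n × Fin n := (⟨0, by omega⟩, ⟨1, by omega⟩)
  have he := exists_pv D (p := p) (by simp [p])
  obtain ⟨p', hp', d', -, -, -⟩ := exists_pair3 hn p p p p
  have he' := exists_pv D hp'
  set e₀ : V := Pi.single p.1 1 + D.t • Pi.single p.2 1
  set e₁ : V := Pi.single p'.1 1 + D.t • Pi.single p'.2 1
  obtain ⟨g₀, hg₀, p00⟩ := PV.dual D he
  obtain ⟨g₁, hg₁, p11⟩ := PV.dual D he'
  have h01 : h e₀ e₁ = 0 := he.orth he' d'.symm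
  have p01 : h e₀ g₁ = 0 := he.orth hg₁ d'.symm
  have p10 : h e₁ g₀ = 0 := he'.orth hg₀ d'
  set α := h e₀ w
  have hα0 : α ≠ 0 := hinj _ he.rt he.ne_zero he.iso
  set lam := h e₁ w / α with hlamdef
  have hiso : ∀ s ∈ F₀, h (e₁ + s • e₀) (e₁ + s • e₀) = 0 := fun s _ => by
    simp only [UGeom.form_add_left, UGeom.form_add_right C, UGeom.form_smul_left, UGeom.form_smul_right C,
      he.iso, he'.iso, h01, comm_zero C h01]
    ring
  have hne : ∀ s : F, e₁ + s • e₀ ≠ 0 := fun s e => by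
    have h1 := congrArg (fun x => h x g₁) e
    simp [UGeom.form_add_left, UGeom.form_smul_left, p11, p01, UGeom.form_zero_left] at h1
  have hlamF : ∀ s ∈ F₀, lam + s ≠ 0 := fun s hs e => by
    refine hinj _ (rt_add he'.rt (rt_smul hs he.rt)) (hne s) (hiso s hs) ?_
    have hl : lam * α = h e₁ w := by rw [hlamdef, div_mul_cancel₀ _ hα0]
    rw [UGeom.form_add_left, UGeom.form_smul_left]
    linear_combination α * e - hl
  have hlam : lam ∉ F₀ := fun hl => hlamF _ (neg_mem hl) (add_neg_cancel lam)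
  obtain ⟨s, hs, hN⟩ : ∃ s ∈ F₀, (lam + s) * C.σ (lam + s) ∉ F₀ := by
    by_contra hall
    push Not at hall
    have a0 := hall 0 (zero_mem _)
    have a1 := hall 1 (one_mem _)
    have a2 := hall D.ε D.ε_mem
    simp only [map_add, map_one, map_zero, add_zero] at a0 a1 a2
    have b1 : C.σ lam + lam ∈ F₀ := by
      have := sub_mem (sub_mem a1 a0) (one_mem F₀)
      rwa [show (lam + 1) * (C.σ lam + 1) - lam * C.σ lam - 1 = C.σ lam + lam by ring] at this
    have b2 : D.ε * C.σ lam + C.σ D.ε * lam ∈ F₀ := by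
      have := sub_mem (sub_mem a2 a0) (mul_mem D.ε_mem (mem_conj C D.ε_mem))
      rwa [show (lam + D.ε) * (C.σ lam + C.σ D.ε) - lam * C.σ lam - D.ε * C.σ D.ε =
        D.ε * C.σ lam + C.σ D.ε * lam by ring] at this
    exact hlam (by simpa [C.invol] using mem_conj C (D.mem_of_twist b1 b2))
  have hdiv : h (e₁ + s • e₀) w / α = lam + s := by
    rw [UGeom.form_add_left, UGeom.form_smul_left, add_div, mul_div_cancel_right₀ _ hα0]
  refine no_generic_aux D T (e₀ := e₀) (e₁ := e₁ + s • e₀) (g₀ := g₀ - C.σ s • g₁) (g₁ := g₁) he.rt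
    (rt_add he'.rt (rt_smul hs he.rt)) (rt_sub hg₀.rt (rt_smul (mem_conj C hs) hg₁.rt)) hg₁.rt he.iso (hiso s hs)
    ?_ ?_ p01 ?_ ?_ hww hc0 hy hα0 (fun hl => hlam ?_) (by rwa [hdiv])
  · rw [UGeom.form_add_right C, UGeom.form_smul_right C, he.iso, h01]; ring
  · rw [UGeom.form_sub_right C, UGeom.form_smul_right C, p00, p01]; ring
  · simp only [UGeom.form_add_left, UGeom.form_smul_left, UGeom.form_sub_right C, UGeom.form_smul_right C,
      C.invol, p00, p01, p10, p11]
    ring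
  · rw [UGeom.form_add_left, UGeom.form_smul_left, p11, p01]; ring
  · rw [hdiv] at hl
    simpa using sub_mem hl hs

/-- The centre of a transvection in `H` spans a rational line, with rational coefficient. -/
theorem entries_rat {w : V} {c : F} (hww : h w w = 0) (hy : Has q H w 0 c) (a b : Fin n) :
    c * C.σ (w a) * w b ∈ F₀ := by
  by_cases hc : c = 0
  · simp [hc, zero_mem]
  by_contra hne
  refine no_generic D T hww hc hy fun u hu hu0 huu huw => hne ?_
  obtain ⟨g, hg, eg⟩ := hy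
  have hR := fix_isR D T hg hu hu0 huu (isG_fix eg huw (UGeom.form_zero_right C _))
  have h1 := centre_rat (C := C) hR eg (rt_single a) (rt_single b)
  rwa [form_single_left C, form_single_right C] at h1

end CfsgLib.SubMaxSU
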