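import Mathlib
import Cfsg.Agent.SubMaxSU.Rigid
import Cfsg.Agent.S0755

/-!
Subfield subgroups of odd index are maximal in the special unitary group.
-/

set_option autoImplicit false

namespace CfsgLib.SubMaxSU

open Matrix CfsgLib.UGeom

variable {F : Type*} [Field F] [Fintype F] {n q : ℕ}
variable {C : Conj F q} {F₀ : Subfield F}

local notation "V" => (Fin n → F)
local notation "G" => GL (Fin n) F
local notation "h" => Cfsg.hermForm n F q
local notation:max "↟" g:max => ((g : GL (Fin n) F) : Matrix (Fin n) (Fin n) F)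

/-- The restricted conjugation. -/
noncomputable def res₀ (C : Conj F q) (F₀ : Subfield F) : F₀ →+* F₀ :=
  (C.σ.comp F₀.subtype).codRestrict F₀ fun x => mem_conj C x.2

theorem res₀_apply (x : F₀) : ((res₀ C F₀ x : F₀) : F) = C.σ x := rfl

theorem exists_data (hC : ∀ x, C.σ x = x ^ q) {r : ℕ} (hr : r.Prime) (hro : Odd r)
    (hcard : Fintype.card F = Nat.card F₀ ^ r) : Nonempty (Data C F₀) := by
  have hr3 : 3 ≤ r := by
    rcases hro with ⟨k, rfl⟩
    have := hr.two_le
    omega
  obtain ⟨a, ha⟩ : ∃ a : F, a ∉ F₀ := by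
    by_contra hall
    push Not at hall
    have hq2 : 2 ≤ Nat.card F₀ := Finite.one_lt_card
    have h1 : Nat.card F₀ = Fintype.card F := by
      rw [← Nat.card_eq_fintype_card]
      exact Nat.card_congr (Equiv.subtypeUnivEquiv hall)
    rw [hcard] at h1
    exact hr.ne_one (Nat.pow_right_injective hq2
      (show Nat.card F₀ ^ 1 = Nat.card F₀ ^ r by rw [pow_one]; exact h1)).symm
  obtain ⟨ε, hε, hε'⟩ : ∃ ε ∈ F₀, C.σ ε ≠ ε := by
    by_contra hall
    push Not at hall
    -- the fixed ring is everything or the subfield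
    have hfix := SubMaxSp.ring_dichotomy hr hcard (RingHom.eqLocus C.σ (RingHom.id F))
      (fun x hx => hall x hx)
    rcases hfix with e | e
    · exact C.ne_id (RingHom.ext fun x => (e ▸ Subring.mem_top x : x ∈ RingHom.eqLocus C.σ (RingHom.id F)))
    · refine ha (SubMaxSp.mem_of_quad hr hr3 hcard
        (e (a + C.σ a) (show C.σ (a + C.σ a) = a + C.σ a by rw [map_add, C.invol, add_comm]))
        (neg_mem (e (a * C.σ a) (show C.σ (a * C.σ a) = a * C.σ a by rw [map_mul, C.invol, mul_comm]))) ?_)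
      ring
  have hne : res₀ C F₀ ≠ RingHom.id F₀ := fun e => hε' (by
    have := congrArg (fun g : F₀ →+* F₀ => ((g ⟨ε, hε⟩ : F₀) : F)) e
    exact this)
  obtain ⟨c, -, hc⟩ := Hermitian.exists_norm hne (fun x => Subtype.ext (C.invol x))
    (a := (-1 : F₀)) (neg_ne_zero.2 one_ne_zero) (by simp)
  exact ⟨⟨r, hr, hr3, hcard, ε, hε, hε', c, c.2, by
    have := congrArg Subtype.val hc
    rw [mul_comm]
    simpa [res₀_apply] using this⟩⟩

/-- A rational orthonormal basis. -/
theorem exists_normalizer (D : Data C F₀) {P : G} (hP : Cfsg.Geo.IsFormRationalStructure h F₀ 1 P) :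
    ∃ P₀ ∈ (Matrix.GeneralLinearGroup.map (F₀.subtype : F₀ →+* F) : GL (Fin n) F₀ →* G).range,
      P * P₀ ∈ Cfsg.GU n F q := by
  classical
  set σ₀ := res₀ C F₀
  let ι : (Fin n → F₀) → V := fun v k => (v k : F)
  have hadd : ∀ u v, ι (u + v) = ι u + ι v := fun u v => rfl
  have hsmul : ∀ (c : F₀) v, ι (c • v) = (c : F) • ι v := fun c v => rfl
  have hval : ∀ u v : Fin n → F₀, h (↟P *ᵥ ι u) (↟P *ᵥ ι v) ∈ F₀ := fun u v => by
    have := hP (ι u) (ι v) (fun i => (u i).2) (fun i => (v i).2)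
    rwa [one_mul] at this
  let B : (Fin n → F₀) →ₛₗ[σ₀] (Fin n → F₀) →ₗ[F₀] F₀ :=
    { toFun := fun v =>
        { toFun := fun x => ⟨_, hval x v⟩
          map_add' := fun x y => Subtype.ext (by
            show h _ _ = h _ _ + h _ _
            rw [hadd, mulVec_add, UGeom.form_add_left])
          map_smul' := fun c x => Subtype.ext (by
            show h _ _ = (c : F) * h _ _
            rw [hsmul, mulVec_smul, UGeom.form_smul_left]) }
      map_add' := fun u v => LinearMap.ext fun x => Subtype.ext (by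
        show h _ _ = h _ _ + h _ _
        rw [hadd, mulVec_add, UGeom.form_add_right C])
      map_smul' := fun c v => LinearMap.ext fun x => Subtype.ext (by
        show h _ _ = C.σ (c : F) * h _ _
        rw [hsmul, mulVec_smul, UGeom.form_smul_right C]) }
  have hB : ∀ u v, ((B v u : F₀) : F) = h (↟P *ᵥ ι u) (↟P *ᵥ ι v) := fun u v => rfl
  have hsym : B.IsSymm := ⟨fun u v => Subtype.ext (by
    rw [res₀_apply, hB, hB, UGeom.form_conj C])⟩
  have hrows : ∀ z, (∀ k : Fin n, h z (↟P *ᵥ (Pi.single k 1 : V)) = 0) → z = 0 := by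
    intro z hz
    refine UGeom.ext_form C fun x => ?_
    rw [UGeom.form_zero_left]
    obtain ⟨y, rfl⟩ : ∃ y, x = ↟P *ᵥ y := ⟨↟(P⁻¹) *ᵥ x, (GeoFull.mulVec_inv_cancel P x).symm⟩
    rw [show y = ∑ k, y k • (Pi.single k 1 : V) from funext fun o => by simp [Finset.sum_apply, Pi.single_apply],
      Matrix.mulVec_sum]
    refine Finset.sum_induction _ (fun w => h z w = 0)
      (fun a b ha hb => by rw [UGeom.form_add_right C, ha, hb, add_zero]) (UGeom.form_zero_right C z)
      fun k _ => ?_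
    rw [mulVec_smul, UGeom.form_smul_right C, hz, mul_zero]
  have hsingle : ∀ k, ι (Pi.single k 1) = Pi.single k 1 := fun k => funext fun o => by
    rcases eq_or_ne o k with rfl | ho <;> simp [ι, *]
  have hker : ∀ v, (∀ u, B v u = 0) → v = 0 := fun v hv => by
    have h1 := hrows (↟P *ᵥ ι v) fun k => by
      rw [← UGeom.form_conj C, ← hsingle, ← hB, hv, ZeroMemClass.coe_zero, map_zero]
    have h2 := congrArg (fun x => ↟(P⁻¹) *ᵥ x) h1
    simp only [GeoFull.inv_mulVec_cancel, mulVec_zero] at h2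
    exact funext fun k => Subtype.ext (congrFun h2 k)
  have hne : σ₀ ≠ RingHom.id F₀ := fun e => D.ε_ne (by
    have := congrArg (fun g : F₀ →+* F₀ => ((g ⟨D.ε, D.ε_mem⟩ : F₀) : F)) e
    exact this)
  have hnd : B.Nondegenerate := ⟨fun v hv => hker v hv, fun v hv => hker v fun u => by
    rw [← hsym.eq, hv, map_zero]⟩
  obtain ⟨b, hb⟩ := Cfsg.Agent.S0755.result σ₀ hne (fun x => Subtype.ext (C.invol x)) B hsym hnd
  have hfin : Module.finrank F₀ (Fin n → F₀) = n := by simp
  let c : Fin n → (Fin n → F₀) := fun k => b (Fin.cast hfin.symm k)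
  let M : Matrix (Fin n) (Fin n) F₀ := fun a k => c k a
  have hdet : M.det ≠ 0 := by
    intro h0
    obtain ⟨x, hx0, hx⟩ := Matrix.exists_mulVec_eq_zero_iff.2 h0
    refine hx0 (funext fun k => ?_)
    have hMx : M *ᵥ x = ∑ l, x l • c l := funext fun a => by
      simp [Matrix.mulVec, dotProduct, M, Finset.sum_apply, mul_comm]
    rw [hMx] at hx
    have h1 := congrArg (fun y => B (c k) y) hx
    simp only [c, map_sum, map_smul, hb, Fin.cast_inj, smul_eq_mul, mul_ite, mul_one, mul_zero, Finset.sum_ite_eq,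
      Finset.sum_ite_eq', Finset.mem_univ, if_true, map_zero] at h1
    exact h1
  refine ⟨Matrix.GeneralLinearGroup.map (F₀.subtype : F₀ →+* F) (GeneralLinearGroup.mkOfDetNeZero M hdet),
    ⟨_, rfl⟩, ?_⟩
  set Q := Matrix.GeneralLinearGroup.map (F₀.subtype : F₀ →+* F) (GeneralLinearGroup.mkOfDetNeZero M hdet)
  have hQ : ∀ k, ↟Q *ᵥ Pi.single k 1 = ι (c k) := fun k => by
    rw [mulVec_single_one]; rfl
  have hstd : ∀ a d : Fin n, h (↟(P * Q) *ᵥ Pi.single a 1) (↟(P * Q) *ᵥ Pi.single d 1) =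
      h (Pi.single a 1) (Pi.single d 1) := by
    intro a d
    rw [Units.val_mul, ← mulVec_mulVec, ← mulVec_mulVec, hQ, hQ, ← hB, form_single_right C]
    rcases eq_or_ne d a with rfl | hda
    · simp [c, hb]
    · simp [c, hb, hda, Ne.symm hda, Fin.cast_inj]
  refine GeoSU.mem_GU.2 fun u v => ?_
  have hsum : ∀ x : V, x = ∑ k, x k • (Pi.single k 1 : V) := fun x =>
    funext fun o => by simp [Finset.sum_apply, Pi.single_apply]
  have key : ∀ (a : Fin n) (y : V), h (↟(P * Q) *ᵥ Pi.single a 1) (↟(P * Q) *ᵥ y) = h (Pi.single a 1) y := by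
    intro a y
    have hp : ∀ T : Finset (Fin n), h (↟(P * Q) *ᵥ Pi.single a 1) (↟(P * Q) *ᵥ ∑ k ∈ T, y k • (Pi.single k 1 : V)) =
        h (Pi.single a 1) (∑ k ∈ T, y k • (Pi.single k 1 : V)) := by
      intro T
      induction T using Finset.induction_on with
      | empty => simp [UGeom.form_zero_right C]
      | insert k T hk ih =>
        rw [Finset.sum_insert hk, mulVec_add, UGeom.form_add_right C, UGeom.form_add_right C, ih, mulVec_smul,
          UGeom.form_smul_right C, UGeom.form_smul_right C, hstd]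
    rw [hsum y]
    exact hp _
  have hp : ∀ T : Finset (Fin n), h (↟(P * Q) *ᵥ ∑ k ∈ T, u k • (Pi.single k 1 : V)) (↟(P * Q) *ᵥ v) =
      h (∑ k ∈ T, u k • (Pi.single k 1 : V)) v := by
    intro T
    induction T using Finset.induction_on with
    | empty => simp [UGeom.form_zero_left]
    | insert k T hk ih =>
      rw [Finset.sum_insert hk, mulVec_add, UGeom.form_add_left, UGeom.form_add_left, ih, mulVec_smul,
        UGeom.form_smul_left, UGeom.form_smul_left, key]
  rw [hsum u]
  exact hp _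

theorem std_maximal (hn : 13 ≤ n) (D : Data C F₀) :
    Cfsg.Geo.IsMaximalIn (S n F q) (Cfsg.Geo.subfieldSubgroup F₀ (1 : G) ⊓ S n F q) := by
  classical
  let p : Fin n × Fin n := (⟨0, by omega⟩, ⟨1, by omega⟩)
  have hp : p.1 ≠ p.2 := by simp [p]
  have he := exists_pv D hp
  set e : V := Pi.single p.1 1 + D.t • Pi.single p.2 1
  obtain ⟨f, hf, hef⟩ := PV.dual D he
  have hfe : h f e = 1 := by rw [← form_conj C, hef, map_one]
  refine ⟨lt_of_le_not_ge inf_le_right fun hle => ?_, fun M hGM hMS => ?_⟩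
  · -- a transvection outside
    obtain ⟨a, ha⟩ : ∃ a : F, a ∉ F₀ := by
      by_contra hall
      push Not at hall
      have hq2 : 2 ≤ Nat.card F₀ := Finite.one_lt_card
      have h1 : Nat.card F₀ = Fintype.card F := by
        rw [← Nat.card_eq_fintype_card]
        exact Nat.card_congr (Equiv.subtypeUnivEquiv hall)
      rw [D.card] at h1
      exact D.hr.ne_one (Nat.pow_right_injective hq2
        (show Nat.card F₀ ^ 1 = Nat.card F₀ ^ D.r by rw [pow_one]; exact h1)).symm
    obtain ⟨c, hc, hcF⟩ : ∃ c : F, c + C.σ c = 0 ∧ c ∉ F₀ := by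
      by_contra hall
      push Not at hall
      have h1 := hall (D.δ * (a + C.σ a)) (by
        rw [map_mul, D.σ_δ, map_add, C.invol]; ring)
      have h2 := hall (D.δ * (D.ε * a + C.σ D.ε * C.σ a)) (by
        rw [map_mul, D.σ_δ, map_add, map_mul, map_mul, C.invol, C.invol]; ring)
      have h1' := div_mem h1 D.δ_mem
      have h2' := div_mem h2 D.δ_mem
      rw [mul_div_cancel_left₀ _ D.δ_ne] at h1' h2'
      exact ha (D.mem_of_twist h1' h2')
    obtain ⟨g, hg, eg⟩ := exists_isG C he.iso (UGeom.form_zero_right C _) (by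
      rw [UGeom.form_zero_left, add_zero]; exact hc)
    obtain ⟨k, hk, hscal⟩ := GeoSubfield.exists_scalar (hle hg).1
    have hrat : ∀ x : V, Rt F₀ x → GeoSubfield.Rat' F₀ (1 : G) x := fun x hx j => by
      rw [inv_one, Units.val_one, one_mulVec]; exact hx j
    have hrat' : ∀ x : V, GeoSubfield.Rat' F₀ (1 : G) x → Rt F₀ x := fun x hx j => by
      have := hx j
      rwa [inv_one, Units.val_one, one_mulVec] at this
    have h1 := rt_form (q := q) (hrat' _ (hscal _ (hrat _ he.rt))) hf.rt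
    have h2 := rt_form (q := q) (hrat' _ (hscal _ (hrat _ hf.rt))) hf.rt
    rw [UGeom.form_smul_left, isG_tv (C := C) eg, he.iso, mul_zero, zero_smul, add_zero, hef, mul_one] at h1
    rw [UGeom.form_smul_left, isG_tv (C := C) eg, hfe, mul_one, UGeom.form_add_left, UGeom.form_smul_left,
      hf.iso, hef, zero_add, mul_one] at h2
    have := div_mem h2 h1
    rw [mul_div_cancel_left₀ _ hk] at this
    exact hcF this
  · have T : Setting q M F₀ := ⟨hn, fun g hg hR => hGM ⟨isR_mem_subfield hR, hg⟩, hMS⟩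
    obtain ⟨A, hA, hA0⟩ := exists_ring D T
    rcases SubMaxSp.ring_dichotomy D.hr D.card A hA0 with hA' | hA'
    · exact Or.inr (eq_top_case D T fun a => (hA a).1 (hA' ▸ Subring.mem_top a))
    · have T' : Tight C M F₀ := { toSetting := T, small := fun a ha => hA' a ((hA a).2 ha) }
      refine Or.inl (le_antisymm (le_inf (fun g hg => ?_) hMS) hGM)
      have hprod : ∀ s : V, Rt F₀ s → h s s = 0 → ∀ a b, C.σ ((↟g *ᵥ s) a) * (↟g *ᵥ s) b ∈ F₀ := by
        intro s hs hss a b
        have h1 := has_conj hg (hMS hg) (has_rat D T hs rt_zero D.δ_mem hss (UGeom.form_zero_right C _)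
          (by rw [UGeom.form_zero_left, add_zero]; exact D.δ_skew))
        rw [mulVec_zero] at h1
        have h2 := div_mem (entries_rat D T' (by rw [mem_form (hMS hg), hss]) h1 a b) D.δ_mem
        rwa [mul_assoc, mul_div_cancel_left₀ _ D.δ_ne] at h2
      set x := ↟g *ᵥ e with hx
      obtain ⟨b₀, hb₀⟩ : ∃ b, x b ≠ 0 := Function.ne_iff.1 fun h0 => he.ne_zero (by
        rw [← GeoFull.inv_mulVec_cancel g e, ← hx, show x = 0 from h0, mulVec_zero])
      set k := C.σ (x b₀)
      have hk : k ≠ 0 := (map_ne_zero C.σ).2 hb₀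
      have hgood : ∀ z, Rt F₀ z → h z z = 0 → h z e ≠ 0 → ∀ a, k * (↟g *ᵥ z) a ∈ F₀ := by
        intro z hz hzz hze a
        have h1 : k * (↟g *ᵥ z) a * h e z ∈ F₀ := by
          rw [← mem_form (hMS hg) e z, ← hx, UGeom.form_eq C, Finset.mul_sum]
          refine Subfield.sum_mem _ fun l _ => ?_
          rw [show k * (↟g *ᵥ z) a * (x l * C.σ ((↟g *ᵥ z) l)) =
            (C.σ (x b₀) * x l) * (C.σ ((↟g *ᵥ z) l) * (↟g *ᵥ z) a) by ring]
          exact mul_mem (hprod e he.rt he.iso b₀ l) (hprod z hz hzz l a)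
        have hne : h e z ≠ 0 := fun e0 => hze (comm_zero C e0)
        have := div_mem h1 (rt_form (q := q) he.rt hz)
        rwa [mul_div_cancel_right₀ _ hne] at this
      refine GeoSubfield.mem_subfield hk fun l j => ?_
      rw [inv_one, Units.val_one, one_mulVec, one_mulVec, Pi.smul_apply, smul_eq_mul]
      exact rat_induction D (by omega) he hf hef (fun z => ∀ a, k * (↟g *ᵥ z) a ∈ F₀)
        (fun u v hu hv a => by rw [mulVec_add, Pi.add_apply, mul_add]; exact add_mem (hu a) (hv a))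
        (fun c hc u hu a => by
          rw [mulVec_smul, Pi.smul_apply, smul_eq_mul, mul_left_comm]; exact mul_mem hc (hu a))
        hgood (rt_single l) j

theorem subfield_maximal_su (hn : 13 ≤ n) (D : Data C F₀) {P : G}
    (hP : Cfsg.Geo.IsFormRationalStructure h F₀ 1 P) :
    Cfsg.Geo.IsMaximalIn (S n F q) (Cfsg.Geo.subfieldSubgroup F₀ P ⊓ S n F q) := by
  obtain ⟨P₀, hP₀, hsim⟩ := exists_normalizer D hP
  set Q := P * P₀ with hQ
  set φ : G →* G := (MulAut.conj Q).toMonoidHom with hφ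
  have hφi : Function.Injective φ := (MulAut.conj Q).injective
  set K := (Matrix.GeneralLinearGroup.map (F₀.subtype : F₀ →+* F) : GL (Fin n) F₀ →* G).range ⊔
    Cfsg.Geo.scalars (Fin n) F with hK
  have h1 : Cfsg.Geo.subfieldSubgroup F₀ (1 : G) = K := by
    rw [hK, Cfsg.Geo.subfieldSubgroup, map_one]
    exact Subgroup.map_id _
  have hmap : (Cfsg.Geo.subfieldSubgroup F₀ (1 : G)).map φ = Cfsg.Geo.subfieldSubgroup F₀ P := by
    rw [h1]
    ext g
    simp only [Cfsg.Geo.subfieldSubgroup, ← hK, Subgroup.mem_map, hφ, MulEquiv.coe_toMonoidHom, MulAut.conj_apply]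
    have hPK : P₀ ∈ K := Subgroup.mem_sup_left hP₀
    constructor
    · rintro ⟨x, hx, rfl⟩
      exact ⟨P₀ * x * P₀⁻¹, mul_mem (mul_mem hPK hx) (inv_mem hPK), by rw [hQ]; group⟩
    · rintro ⟨x, hx, rfl⟩
      exact ⟨P₀⁻¹ * x * P₀, mul_mem (mul_mem (inv_mem hPK) hx) hPK, by rw [hQ]; group⟩
  have hsp : ∀ g : G, φ g ∈ S n F q ↔ g ∈ S n F q := by
    intro g
    have hd : Q * g * Q⁻¹ ∈ Cfsg.Geo.specialLinear (Fin n) F ↔ g ∈ Cfsg.Geo.specialLinear (Fin n) F :=
      ⟨fun h' => by simpa [mul_assoc, Cfsg.Geo.specialLinear] using (MonoidHom.normal_ker _).conj_mem _ h' Q⁻¹,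
        fun h' => (MonoidHom.normal_ker _).conj_mem _ h' Q⟩
    simp only [hφ, MulEquiv.coe_toMonoidHom, MulAut.conj_apply, Subgroup.mem_inf, hd]
    constructor
    · rintro ⟨a, b⟩
      exact ⟨by simpa [mul_assoc] using mul_mem (mul_mem (inv_mem hsim) a) hsim, b⟩
    · rintro ⟨a, b⟩
      exact ⟨mul_mem (mul_mem hsim a) (inv_mem hsim), b⟩
  have hspmap : (S n F q).map φ = S n F q := by
    ext g
    rw [Subgroup.mem_map]
    exact ⟨fun ⟨x, hx, e⟩ => e ▸ (hsp x).2 hx, fun hg => ⟨Q⁻¹ * g * Q,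
      (hsp _).1 (by simpa [hφ, mul_assoc] using hg), by simp [hφ, mul_assoc]⟩⟩
  have hG : Cfsg.Geo.subfieldSubgroup F₀ P ⊓ S n F q =
      (Cfsg.Geo.subfieldSubgroup F₀ (1 : G) ⊓ S n F q).map φ := by
    rw [Subgroup.map_inf _ _ _ hφi, hspmap, hmap]
  obtain ⟨hlt, hmax⟩ := std_maximal hn D
  rw [hG]
  refine ⟨?_, fun M hGM hMS => ?_⟩
  · conv_rhs => rw [← hspmap]
    exact (Subgroup.map_lt_map_iff_of_injective hφi).2 hlt
  · have hsur : Function.Surjective φ := (MulAut.conj Q).surjective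
    rcases hmax (M.comap φ) (Subgroup.map_le_iff_le_comap.1 hGM)
      (fun g hg => (hsp g).1 (hMS hg)) with h' | h'
    · left
      rw [← h', Subgroup.map_comap_eq_self_of_surjective hsur]
    · right
      rw [← hspmap, ← h', Subgroup.map_comap_eq_self_of_surjective hsur]

end CfsgLib.SubMaxSU
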